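import Cfsg.Agent.Lib.Helper91.MonCo2
import Cfsg.Agent.Lib.Helper33.MonBase3

/-!
# The image in `Co1` of the centraliser of a lift of the vector `x0` of norm 64
-/

set_option autoImplicit false

namespace Cfsg.Agent.Lib.Helper91

open Cfsg Cfsg.Agent.Lib.Helper9 Cfsg.Agent.Lib.Helper11 Cfsg.Agent.Lib.Helper33

section clevel

variable {C : Type*} [Group C] {Q : Subgroup C} [hQn : Q.Normal]
variable {e : C ⧸ Q ≃* Spor.Co1} {ψ : leechLattice → Q ⧸ Subgroup.center Q} {ζ : C}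

/-- (C) the image in `Co1` of the centraliser of a lift of `x0` is the image of the stabiliser of
the standard cross -/
theorem map_centralizer64 (hψ : LIso e ψ) (hX : XS Q ζ) {s : C} (hs : Lf ψ x0 s) :
    (Subgroup.centralizer {s}).map (piC e) =
      crossStab.map (QuotientGroup.mk' (Subgroup.center ↥Co0)) := by
  apply le_antisymm
  · rintro _ ⟨h, hh, rfl⟩
    have hh' : h * s = s * h := Subgroup.mem_centralizer_singleton_iff.1 hh
    obtain ⟨g, hg⟩ := exists_g e h
    have h1 := hψ.conj hg hs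
    have h2 : h * s * h⁻¹ = s := by rw [hh']; group
    rw [h2] at h1
    obtain ⟨_, h3⟩ := h1
    obtain ⟨_, h4⟩ := hs
    have h5 : ψ (g • x0 + x0) = 1 := by
      rw [hψ.add, h3, ← h4, ← hψ.add]
      exact (hψ.ker _).2 ⟨x0, rfl⟩
    obtain ⟨w, hw⟩ := (hψ.ker _).1 h5
    have hfix : FixCross g := by
      apply fixCross_of_congr
      refine ⟨(w : GolayPt → ℤ) - (x0 : GolayPt → ℤ), leechLattice.sub_mem w.2 x0.2, ?_⟩
      have h6 : ((g • x0 : ↥leechLattice) : GolayPt → ℤ) + (x0 : GolayPt → ℤ) =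
          (w : GolayPt → ℤ) + (w : GolayPt → ℤ) := congrArg Subtype.val hw
      have h7 : ((g • x0 : ↥leechLattice) : GolayPt → ℤ) =
          (w : GolayPt → ℤ) + (w : GolayPt → ℤ) - (x0 : GolayPt → ℤ) := by rw [← h6]; abel
      rw [h7, smul_sub, two_smul, two_smul]
      abel
    refine ⟨g, hfix, ?_⟩
    show (QuotientGroup.mk g : Spor.Co1) = piC e h
    rw [piC_apply, ← hg]
  · rintro _ ⟨g, hgv, rfl⟩
    obtain ⟨h, hg⟩ := exists_h e g
    obtain ⟨t, ht⟩ := congr_of_fixCross hgv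
    have h1 : Lf ψ x0 (h * s * h⁻¹) := by
      have h0 := hψ.congr (hψ.conj hg hs) (-t)
      have : g • x0 + (-t + -t) = x0 := by rw [ht]; abel
      rwa [this] at h0
    rcases Lf.unique hX hs h1 with h2 | h2
    · refine ⟨h, ?_, ?_⟩
      · show h ∈ Subgroup.centralizer {s}
        rw [Subgroup.mem_centralizer_singleton_iff]
        calc h * s = (h * s * h⁻¹) * h := by group
          _ = s * h := by rw [h2]
      · show piC e h = (QuotientGroup.mk g : Spor.Co1)
        rw [piC_apply, ← hg]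
    · have hnc : ¬ (s = 1 ∨ s = ζ) := fun hc =>
        not_double (Or.inr (Or.inr sqNorm_x0)) ((hψ.central_iff hX hs).1 hc)
      push Not at hnc
      obtain ⟨y, hy, hys⟩ := hX.conj_z hs.mem hnc.1 hnc.2
      refine ⟨y⁻¹ * h, ?_, ?_⟩
      · show y⁻¹ * h ∈ Subgroup.centralizer {s}
        rw [Subgroup.mem_centralizer_singleton_iff]
        calc y⁻¹ * h * s = y⁻¹ * (h * s * h⁻¹) * h := by group
          _ = y⁻¹ * (y * s * y⁻¹) * h := by rw [h2, hys]
          _ = s * (y⁻¹ * h) := by group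
      · show piC e (y⁻¹ * h) = (QuotientGroup.mk g : Spor.Co1)
        have hy1 : piC e y⁻¹ = 1 := by
          rw [← MonoidHom.mem_ker, piC_ker]; exact Q.inv_mem hy
        rw [map_mul, hy1, one_mul, piC_apply, ← hg]

/-- the image in `C ⧸ Q` of the centraliser of a lift of `x0` has shape `2^11 : M24` -/
theorem split24_centralizer_x0 (hψ : LIso e ψ) (hX : XS Q ζ) {s : C} (hs : Lf ψ x0 s) :
    Split24 ((Subgroup.centralizer {s}).map (QuotientGroup.mk' Q)) := by
  have h1 := split24_crossStab.map e.symm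
  rw [← map_centralizer64 hψ hX hs] at h1
  have h2 : ((Subgroup.centralizer {s}).map (piC e)).map e.symm.toMonoidHom =
      (Subgroup.centralizer {s}).map (QuotientGroup.mk' Q) := by
    rw [Subgroup.map_map]
    congr 1
    ext x
    simp [piC]
  rwa [h2] at h1

/-- conjugation invariance -/
theorem split24_centralizer_conj {s : C} (h : C)
    (hs : Split24 ((Subgroup.centralizer {h * s * h⁻¹}).map (QuotientGroup.mk' Q))) :
    Split24 ((Subgroup.centralizer {s}).map (QuotientGroup.mk' Q)) := by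
  have h1 := hs.map (MulAut.conj (QuotientGroup.mk' Q h⁻¹))
  have h2 : ((Subgroup.centralizer {h * s * h⁻¹}).map (QuotientGroup.mk' Q)).map
      (MulAut.conj (QuotientGroup.mk' Q h⁻¹)).toMonoidHom =
      (Subgroup.centralizer {s}).map (QuotientGroup.mk' Q) := by
    ext x
    constructor
    · rintro ⟨_, ⟨y, hy, rfl⟩, rfl⟩
      refine ⟨h⁻¹ * y * h, ?_, ?_⟩
      · have hy' := Subgroup.mem_centralizer_singleton_iff.1 hy
        show h⁻¹ * y * h ∈ Subgroup.centralizer {s}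
        rw [Subgroup.mem_centralizer_singleton_iff]
        calc h⁻¹ * y * h * s = h⁻¹ * (y * (h * s * h⁻¹)) * h := by group
          _ = h⁻¹ * ((h * s * h⁻¹) * y) * h := by rw [hy']
          _ = s * (h⁻¹ * y * h) := by group
      · simp
    · rintro ⟨y, hy, rfl⟩
      refine ⟨_, ⟨h * y * h⁻¹, ?_, rfl⟩, ?_⟩
      · have hy' := Subgroup.mem_centralizer_singleton_iff.1 hy
        show h * y * h⁻¹ ∈ Subgroup.centralizer {h * s * h⁻¹}
        rw [Subgroup.mem_centralizer_singleton_iff]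
        calc h * y * h⁻¹ * (h * s * h⁻¹) = h * (y * s) * h⁻¹ := by group
          _ = h * (s * y) * h⁻¹ := by rw [hy']
          _ = h * s * h⁻¹ * (h * y * h⁻¹) := by group
      · simp only [QuotientGroup.mk'_apply, QuotientGroup.mk_inv, MulEquiv.coe_toMonoidHom,
          MulAut.conj_apply, QuotientGroup.mk_mul, inv_inv]
        group
  rwa [h2] at h1

end clevel

/-- the abstract final step: a normal subgroup `A` of `X` of order `2^24` meeting `Q` in at most
`2^13` elements -/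
theorem split24_final {C : Type*} [Group C] {Q : Subgroup C} [Q.Normal] {X A : Subgroup C}
    (hAX : A ≤ X) (hn : ∀ x ∈ X, ∀ a ∈ A, x * a * x⁻¹ ∈ A) (hA : Nat.card A = 2 ^ 24)
    (hAQ : Nat.card (A ⊓ Q : Subgroup C) ≤ 2 ^ 13)
    (hS : Split24 (X.map (QuotientGroup.mk' Q))) :
    Nat.card (A ⊓ Q : Subgroup C) = 2 ^ 13 ∧
    (A.map (QuotientGroup.mk' Q) ≤ X.map (QuotientGroup.mk' Q) ∧
      (∀ x ∈ X.map (QuotientGroup.mk' Q), ∀ y ∈ A.map (QuotientGroup.mk' Q),
        x * y * x⁻¹ ∈ A.map (QuotientGroup.mk' Q)) ∧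
      IsElementaryAbelian 2 (A.map (QuotientGroup.mk' Q)) ∧
      Nat.card (A.map (QuotientGroup.mk' Q)) = 2 ^ 11 ∧
      ∃ K : Subgroup (C ⧸ Q), K ≤ X.map (QuotientGroup.mk' Q) ∧
        A.map (QuotientGroup.mk' Q) ⊓ K = ⊥ ∧
        A.map (QuotientGroup.mk' Q) ⊔ K = X.map (QuotientGroup.mk' Q) ∧ Nonempty (K ≃* M24)) := by
  obtain ⟨S, K, hSN, hKN, hc, hsq, hinf, hsup, hK, hB⟩ := hS
  have hnorm : ∀ x ∈ X.map (QuotientGroup.mk' Q), ∀ y ∈ A.map (QuotientGroup.mk' Q),
        x * y * x⁻¹ ∈ A.map (QuotientGroup.mk' Q) := by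
    rintro _ ⟨x, hx, rfl⟩ _ ⟨a, ha, rfl⟩
    exact ⟨x * a * x⁻¹, hn x hx a ha, by simp⟩
  have hle : A.map (QuotientGroup.mk' Q) ≤ S :=
    hB _ (Subgroup.map_mono hAX) ((IsPGroup.of_card hA).map _) hnorm
  have hfin : Finite S := Nat.finite_of_card_ne_zero (by rw [hc]; norm_num)
  have h1 := card_inf_ker_mul_card_map (QuotientGroup.mk' Q) A
  rw [QuotientGroup.ker_mk', hA] at h1
  have h2 : Nat.card (A.map (QuotientGroup.mk' Q)) ≤ 2 ^ 11 := by
    rw [← hc]; exact Subgroup.card_le_of_le hle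
  have h3 : Nat.card (A ⊓ Q : Subgroup C) = 2 ^ 13 ∧
      Nat.card (A.map (QuotientGroup.mk' Q)) = 2 ^ 11 := by
    generalize Nat.card (A ⊓ Q : Subgroup C) = a at *
    generalize Nat.card (A.map (QuotientGroup.mk' Q)) = b at *
    have h4 : a * b ≤ 2 ^ 13 * b := Nat.mul_le_mul_right b hAQ
    have h5 : a * b ≤ a * 2 ^ 11 := Nat.mul_le_mul_left a h2
    constructor <;> omega
  have hES : A.map (QuotientGroup.mk' Q) = S :=
    Subgroup.eq_of_le_of_card_ge hle (by rw [hc, h3.2])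
  refine ⟨h3.1, Subgroup.map_mono hAX, hnorm, ?_, h3.2, K, hKN, ?_, ?_, hK⟩
  · rw [hES]
    refine ⟨⟨⟨?_⟩⟩, fun a ha => by rw [pow_two]; exact hsq a ha⟩
    rintro ⟨x, hx⟩ ⟨y, hy⟩
    apply Subtype.ext
    show x * y = y * x
    have h1 := hsq x hx
    have h2 := hsq y hy
    have h3 := hsq _ (S.mul_mem hx hy)
    have hx' : x⁻¹ = x := inv_eq_of_mul_eq_one_left h1
    have hy' : y⁻¹ = y := inv_eq_of_mul_eq_one_left h2
    calc x * y = (x * y)⁻¹ := (inv_eq_of_mul_eq_one_left h3).symm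
      _ = y⁻¹ * x⁻¹ := mul_inv_rev _ _
      _ = y * x := by rw [hx', hy']
  · rw [hES, hinf]
  · rw [hES, hsup]

end Cfsg.Agent.Lib.Helper91
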