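import Mathlib
import Cfsg.Agent.S4206
import Cfsg.Agent.Lib.Lead.HKK.Defs

/-!
# Ladder HKK, rung GC: commutator calculus modulo the lower central series
-/

set_option autoImplicit false

namespace Cfsg.Agent.Lib.Helper91.HKK

open Cfsg.Agent.Lib.Lead.HKK
open scoped commutatorElement

variable {G : Type*} [Group G]

theorem Γ_anti {a b : ℕ} (h : a ≤ b) : Γ G b ≤ Γ G a :=
  Subgroup.lowerCentralSeries_antitone _ h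

theorem Γ_normal (k : ℕ) : (Γ G k).Normal := by
  have : (Γ G k).Characteristic := Subgroup.lowerCentralSeries_characteristic _ k
  infer_instance

theorem Γ_conj_mem {k : ℕ} {w : G} (hw : w ∈ Γ G k) (g : G) : g * w * g⁻¹ ∈ Γ G k :=
  (Γ_normal k).conj_mem w hw g

/-- conjugation is trivial on `Γ d` modulo `Γ (d + 1)` -/
theorem gc_conj (d : ℕ) (k w : G) (hw : w ∈ Γ G d) : w⁻¹ * (k * w * k⁻¹) ∈ Γ G (d + 1) := by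
  have h : ⁅w⁻¹, k⁆ ∈ Γ G (d + 1) :=
    Subgroup.commutator_mem_commutator (Subgroup.inv_mem _ hw) (Subgroup.mem_top k)
  have e : w⁻¹ * (k * w * k⁻¹) = ⁅w⁻¹, k⁆ := by
    rw [commutatorElement_def]; group
  rw [e]; exact h

variable [Finite G]

theorem gc_mem (a b : ℕ) (g h : G) (hg : g ∈ Γ G a) (hh : h ∈ Γ G b) :
    ⁅g, h⁆ ∈ Γ G (a + b + 1) :=
  (Cfsg.Agent.S4206.result (fun i => Γ G i) (fun i => Γ_normal i)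
    (fun i => Γ_anti (Nat.le_succ i)) ⊤ (fun _ => le_rfl) a b)
    (Subgroup.commutator_mem_commutator hg hh)

theorem gc_mul_left (a b : ℕ) (g g' h : G) (hg : g ∈ Γ G a) (hg' : g' ∈ Γ G a) (hh : h ∈ Γ G b) :
    (⁅g, h⁆ * ⁅g', h⁆)⁻¹ * ⁅g * g', h⁆ ∈ Γ G (a + b + 2) := by
  have hu : ⁅g, h⁆ ∈ Γ G (a + b + 1) := gc_mem a b g h hg hh
  have hw : ⁅g', h⁆ ∈ Γ G (a + b + 1) := gc_mem a b g' h hg' hh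
  have e : (⁅g, h⁆ * ⁅g', h⁆)⁻¹ * ⁅g * g', h⁆
      = ((⁅g', h⁆⁻¹ * ⁅g, h⁆⁻¹) * ⁅g, ⁅g', h⁆⁆ * (⁅g', h⁆⁻¹ * ⁅g, h⁆⁻¹)⁻¹)
        * ⁅⁅g', h⁆⁻¹, ⁅g, h⁆⁻¹⁆ := by
    simp only [commutatorElement_def]; group
  rw [e]
  apply Subgroup.mul_mem
  · exact Γ_conj_mem (Γ_anti (by omega) (gc_mem a (a + b + 1) g _ hg hw)) _
  · exact Γ_anti (by omega) (gc_mem _ _ _ _ (Subgroup.inv_mem _ hw) (Subgroup.inv_mem _ hu))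

theorem gc_mul_right (a b : ℕ) (g h h' : G) (hg : g ∈ Γ G a) (hh : h ∈ Γ G b) (hh' : h' ∈ Γ G b) :
    (⁅g, h⁆ * ⁅g, h'⁆)⁻¹ * ⁅g, h * h'⁆ ∈ Γ G (a + b + 2) := by
  have hw : ⁅g, h'⁆ ∈ Γ G (a + b + 1) := gc_mem a b g h' hg hh'
  have e : (⁅g, h⁆ * ⁅g, h'⁆)⁻¹ * ⁅g, h * h'⁆ = ⁅⁅g, h'⁆⁻¹, h⁆ := by
    simp only [commutatorElement_def]; group
  rw [e]
  exact Γ_anti (by omega) (gc_mem _ _ _ _ (Subgroup.inv_mem _ hw) hh)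

theorem gc_inv_left (a b : ℕ) (g h : G) (hg : g ∈ Γ G a) (hh : h ∈ Γ G b) :
    ⁅g, h⁆ * ⁅g⁻¹, h⁆ ∈ Γ G (a + b + 2) := by
  have := gc_mul_left a b g g⁻¹ h hg (Subgroup.inv_mem _ hg) hh
  rw [mul_inv_cancel, commutatorElement_one_left, mul_one] at this
  exact (Subgroup.inv_mem_iff _).1 this

theorem gc_inv_right (a b : ℕ) (g h : G) (hg : g ∈ Γ G a) (hh : h ∈ Γ G b) :
    ⁅g, h⁆ * ⁅g, h⁻¹⁆ ∈ Γ G (a + b + 2) := by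
  have := gc_mul_right a b g h h⁻¹ hg hh (Subgroup.inv_mem _ hh)
  rw [mul_inv_cancel, commutatorElement_one_right, mul_one] at this
  exact (Subgroup.inv_mem_iff _).1 this

theorem gc_congr_right (a b : ℕ) (g h h' : G) (hg : g ∈ Γ G a) (hk : h⁻¹ * h' ∈ Γ G (b + 1)) :
    ⁅g, h⁆⁻¹ * ⁅g, h'⁆ ∈ Γ G (a + b + 2) := by
  have e : ⁅g, h⁆⁻¹ * ⁅g, h'⁆ = h * ⁅g, h⁻¹ * h'⁆ * h⁻¹ := by
    simp only [commutatorElement_def]; group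
  rw [e]
  exact Γ_conj_mem (Γ_anti (by omega) (gc_mem a (b + 1) g _ hg hk)) _

theorem gc_congr_left (a b : ℕ) (g g' h : G) (hk : g⁻¹ * g' ∈ Γ G (a + 1)) (hh : h ∈ Γ G b) :
    ⁅g, h⁆⁻¹ * ⁅g', h⁆ ∈ Γ G (a + b + 2) := by
  have e : ⁅g, h⁆⁻¹ * ⁅g', h⁆ = (⁅g, h⁆⁻¹ * g) * ⁅g⁻¹ * g', h⁆ * (⁅g, h⁆⁻¹ * g)⁻¹ := by
    simp only [commutatorElement_def]; group
  rw [e]
  exact Γ_conj_mem (Γ_anti (by omega) (gc_mem (a + 1) b _ h hk hh)) _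

theorem gc_inv_inv (a b : ℕ) (g h : G) (hg : g ∈ Γ G a) (hh : h ∈ Γ G b) :
    ⁅g, h⁆⁻¹ * ⁅g⁻¹, h⁻¹⁆ ∈ Γ G (a + b + 2) := by
  have h1 := gc_inv_left a b g h hg hh
  have h2 := gc_inv_right a b g⁻¹ h (Subgroup.inv_mem _ hg) hh
  have := Γ_normal (G := G) (a + b + 2)
  rw [← QuotientGroup.eq_one_iff, QuotientGroup.mk_mul] at h1 h2
  rw [← QuotientGroup.eq]
  rw [mul_eq_one_iff_eq_inv] at h1 h2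
  rw [h1, h2, inv_inv]

theorem gc_jacobi (a b c : ℕ) (x y z : G) (hx : x ∈ Γ G a) (hy : y ∈ Γ G b) (hz : z ∈ Γ G c) :
    (⁅⁅x, y⁆, z⁆ * ⁅y, ⁅x, z⁆⁆)⁻¹ * ⁅x, ⁅y, z⁆⁆ ∈ Γ G (a + b + c + 3) := by
  have hn := Γ_normal (G := G) (a + b + c + 3)
  have hxi := Subgroup.inv_mem _ hx
  have hyi := Subgroup.inv_mem _ hy
  have hzi := Subgroup.inv_mem _ hz
  -- the two triple commutators of the Hall-Witt identity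
  have hA : ⁅z, ⁅x, y⁆⁆⁻¹ * ⁅z, ⁅x⁻¹, y⁻¹⁆⁆ ∈ Γ G (a + b + c + 3) :=
    Γ_anti (by omega) (gc_congr_right c (a + b + 1) z ⁅x, y⁆ ⁅x⁻¹, y⁻¹⁆ hz
      (gc_inv_inv a b x y hx hy))
  have h2 : ⁅x, z⁆⁻¹ * ⁅z⁻¹, x⁆ ∈ Γ G (a + c + 1 + 1) := by
    rw [commutatorElement_inv]
    exact Γ_anti (by omega) (gc_inv_left c a z x hz hx)
  have hB1 : ⁅y⁻¹, ⁅x, z⁆⁆⁻¹ * ⁅y⁻¹, ⁅z⁻¹, x⁆⁆ ∈ Γ G (a + b + c + 3) :=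
    Γ_anti (by omega) (gc_congr_right b (a + c + 1) y⁻¹ ⁅x, z⁆ ⁅z⁻¹, x⁆ hyi h2)
  have hB2 : ⁅y, ⁅x, z⁆⁆ * ⁅y⁻¹, ⁅x, z⁆⁆ ∈ Γ G (a + b + c + 3) :=
    Γ_anti (by omega) (gc_inv_left b (a + c + 1) y ⁅x, z⁆ hy (gc_mem a c x z hx hz))
  have hAm : ⁅z, ⁅x⁻¹, y⁻¹⁆⁆⁻¹ ∈ Γ G (a + b + c + 2) :=
    Subgroup.inv_mem _ (Γ_anti (by omega) (gc_mem c (a + b + 1) z _ hz (gc_mem a b _ _ hxi hyi)))
  have hBm : ⁅y⁻¹, ⁅z⁻¹, x⁆⁆⁻¹ ∈ Γ G (a + b + c + 2) :=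
    Subgroup.inv_mem _ (Γ_anti (by omega) (gc_mem b (c + a + 1) y⁻¹ _ hyi (gc_mem c a _ _ hzi hx)))
  have hAc := gc_conj (a + b + c + 2) (y * x) _ hAm
  have hBc := gc_conj (a + b + c + 2) (y * z) _ hBm
  have e : ⁅x, ⁅y, z⁆⁆ = ((y * x) * ⁅z, ⁅x⁻¹, y⁻¹⁆⁆⁻¹ * (y * x)⁻¹)
      * ((y * z) * ⁅y⁻¹, ⁅z⁻¹, x⁆⁆⁻¹ * (y * z)⁻¹) := by
    simp only [commutatorElement_def]; group
  rw [← QuotientGroup.eq] at hA hB1 hAc hBc ⊢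
  rw [← QuotientGroup.eq_one_iff, QuotientGroup.mk_mul, mul_eq_one_iff_eq_inv] at hB2
  rw [e, QuotientGroup.mk_mul, QuotientGroup.mk_mul, ← hAc, ← hBc, QuotientGroup.mk_inv,
    QuotientGroup.mk_inv, ← hA, ← hB1, hB2]
  congr 1
  rw [← QuotientGroup.mk_inv, commutatorElement_inv]

end Cfsg.Agent.Lib.Helper91.HKK
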