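import Cfsg.Agent.Lib.Helper91.ThreeTransp

/-!
# The line system of a set of 3-transpositions: generalities and the transfer to a model
-/

set_option autoImplicit false

namespace Cfsg.Agent.Lib.Helper91

open Cfsg

section basic
variable {G : Type*} [Group G]

/-- the three involutions of the `S₃` generated by `x` and `y` -/
def lnG (x y : G) : Set G := {z | z = x ∨ z = y ∨ z = y * x * y⁻¹}

theorem s3_line_ids (x y : G) (x2 : x * x = 1) (y2 : y * y = 1) (br : x * y * x = y * x * y) :
    (y * x * y) * x * (y * x * y) = y ∧ x * (y * x * y) * x = y ∧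
    (y * x * y) * y * (y * x * y) = x ∧ y * (y * x * y) * y = x ∧
    (y * x * y) * (y * x * y) = 1 ∧ (x = y * x * y → x = y) ∧ (y = y * x * y → x = y) := by
  refine ⟨?_, ?_, ?_, ?_, ?_, ?_, ?_⟩ <;> grind (acSteps := 10000000)

theorem lnG_eq {x y : G} (x2 : x * x = 1) (y2 : y * y = 1) (br : x * y * x = y * x * y)
    (hne : x ≠ y) {u v : G} (hu : u ∈ lnG x y) (hv : v ∈ lnG x y) (huv : u ≠ v) :
    ¬ Commute u v ∧ lnG u v = lnG x y := by
  have xi : x⁻¹ = x := inv_eq_of_mul_eq_one_left x2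
  have yi : y⁻¹ = y := inv_eq_of_mul_eq_one_left y2
  obtain ⟨e1, e2, e3, e4, e5, e6, e7⟩ := s3_line_ids x y x2 y2 br
  have zi : (y * x * y)⁻¹ = y * x * y := inv_eq_of_mul_eq_one_left e5
  have nc : ∀ s t r : G, t * s * t⁻¹ = r → r ≠ s → ¬ Commute s t := by
    intro s t r h1 h2 h3
    apply h2
    rw [← h1, ← h3.eq, mul_inv_cancel_right]
  simp only [lnG, Set.mem_ofPred_eq, yi] at hu hv
  rcases hu with hu | hu | hu <;> rcases hv with hv | hv | hv <;> obtain rfl := hu.symm <;>
    obtain rfl := hv.symm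
  · exact absurd rfl huv
  · exact ⟨nc _ _ _ rfl (by rw [yi]; exact fun h => hne (e6 h.symm)), rfl⟩
  · refine ⟨nc _ _ y (by rw [zi, e1]) (fun h => hne h.symm), ?_⟩
    ext t
    simp only [lnG, Set.mem_ofPred_eq, zi, e1, yi]
    tauto
  · refine ⟨nc _ _ (y * x * y) (by rw [xi, br]) (fun h => hne (e7 h.symm)), ?_⟩
    ext t
    simp only [lnG, Set.mem_ofPred_eq, xi, yi, br]
    tauto
  · exact absurd rfl huv
  · refine ⟨nc _ _ x (by rw [zi, e3]) hne, ?_⟩
    ext t
    simp only [lnG, Set.mem_ofPred_eq, zi, e3, yi]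
    tauto
  · refine ⟨nc _ _ y (by rw [xi, e2]) (fun h => hne (e7 h)), ?_⟩
    ext t
    simp only [lnG, Set.mem_ofPred_eq, xi, e2, yi]
    tauto
  · refine ⟨nc _ _ x (by rw [yi, e4]) (fun h => hne (e6 h)), ?_⟩
    ext t
    simp only [lnG, Set.mem_ofPred_eq, e4, yi]
    tauto
  · exact absurd rfl huv

end basic

section lines
variable {G : Type*} [Group G] {D : Set G}

/-- the line through two points, as a set of points of `D` -/
def ln (x y : D) : Set D := {z : D | (z : G) ∈ lnG (x : G) (y : G)}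

theorem mem_ttLines {l : Set D} :
    l ∈ threeTranspositionLines D ↔ ∃ x y : D, ¬ Commute (x : G) (y : G) ∧ l = ln x y := Iff.rfl

theorem left_mem_ln (x y : D) : x ∈ ln x y := Or.inl rfl
theorem right_mem_ln (x y : D) : y ∈ ln x y := Or.inr (Or.inl rfl)

theorem ne_of_not_commute {x y : D} (h : ¬ Commute (x : G) (y : G)) : x ≠ y := by
  rintro rfl
  exact h (Commute.refl _)

/-- a line is determined by any two of its points -/
theorem line_eq (hS : IsThreeTranspositionSet D) {l : Set D} (hl : l ∈ threeTranspositionLines D)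
    {u v : D} (hu : u ∈ l) (hv : v ∈ l) (huv : u ≠ v) :
    ¬ Commute (u : G) (v : G) ∧ l = ln u v := by
  obtain ⟨x, y, hxy, rfl⟩ := hl
  have h := lnG_eq (tt_sq hS x.2) (tt_sq hS y.2) (tt_braid hS x.2 y.2 hxy)
    (fun h => hxy (by rw [h])) hu hv (fun h => huv (Subtype.ext h))
  refine ⟨h.1, ?_⟩
  ext t
  show (t : G) ∈ lnG (x : G) (y : G) ↔ (t : G) ∈ lnG (u : G) (v : G)
  rw [h.2]

theorem ttLines_partialLinear (hS : IsThreeTranspositionSet D) :
    LineSystem.IsPartialLinear (threeTranspositionLines D) := by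
  intro l hl m hm x y hxy hxl hyl hxm hym
  rw [(line_eq hS hl hxl hyl hxy).2, (line_eq hS hm hxm hym hxy).2]

theorem ttLines_ncard (hconj : ∀ g : G, ∀ d ∈ D, g * d * g⁻¹ ∈ D)
    {l : Set D} (hl : l ∈ threeTranspositionLines D) : l.ncard = 3 := by
  obtain ⟨x, y, hxy, rfl⟩ := hl
  have hne : (x : G) ≠ y := fun h => hxy (by rw [h])
  rw [Set.ncard_eq_three]
  refine ⟨x, y, ⟨(y : G) * x * (y : G)⁻¹, hconj y x x.2⟩, fun h => hne (congrArg Subtype.val h), ?_, ?_,
    ?_⟩
  · intro h
    have h1 : (x : G) = (y : G) * x * (y : G)⁻¹ := congrArg Subtype.val h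
    apply hxy
    show (x : G) * y = y * x
    calc (x : G) * y = ((y : G) * x * (y : G)⁻¹) * y := by rw [← h1]
      _ = y * x := by group
  · intro h
    have h1 : (y : G) = (y : G) * x * (y : G)⁻¹ := congrArg Subtype.val h
    apply hne
    calc (x : G) = (y : G)⁻¹ * ((y : G) * x * (y : G)⁻¹) * y := by group
      _ = y := by rw [← h1]; group
  · ext t
    simp only [Set.mem_insert_iff, Set.mem_singleton_iff, Subtype.ext_iff]
    rfl

/-- on a line through `a` there is another point -/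
theorem exists_ne_on_line {l : Set D} (hl : l ∈ threeTranspositionLines D) (a : D) :
    ∃ b ∈ l, b ≠ a := by
  obtain ⟨x, y, hxy, rfl⟩ := hl
  by_cases h : x = a
  · exact ⟨y, right_mem_ln x y, fun h2 => ne_of_not_commute hxy (h.trans h2.symm)⟩
  · exact ⟨x, left_mem_ln x y, h⟩

end lines

section transfer
variable {G : Type*} [Group G] {D : Set G} {P : Type*} {op : P → P → P} {w : P → D}

theorem model_commute_iff (inj : Function.Injective w)
    (hop : ∀ p q, ((w p : G) * (w q : G) * (w p : G)⁻¹) = w (op p q)) (p q : P) :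
    Commute (w p : G) (w q : G) ↔ op p q = q := by
  constructor
  · intro h
    apply inj
    apply Subtype.ext
    rw [← hop, h.eq, mul_inv_cancel_right]
  · intro h
    have h1 := hop p q
    rw [h] at h1
    show (w p : G) * w q = w q * w p
    calc (w p : G) * w q = ((w p : G) * (w q : G) * (w p : G)⁻¹) * w p := by group
      _ = w q * w p := by rw [h1]

theorem mem_ln_model_iff (inj : Function.Injective w)
    (hop : ∀ p q, ((w p : G) * (w q : G) * (w p : G)⁻¹) = w (op p q)) (p q r : P) :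
    w r ∈ ln (w p) (w q) ↔ (r = p ∨ r = q ∨ r = op q p) := by
  show ((w r : G) = w p ∨ (w r : G) = w q ∨ (w r : G) = (w q : G) * w p * (w q : G)⁻¹) ↔ _
  rw [hop]
  simp only [← Subtype.ext_iff, inj.eq_iff]

theorem ln_subset_range
    (hop : ∀ p q, ((w p : G) * (w q : G) * (w p : G)⁻¹) = w (op p q)) (p q : P) :
    ln (w p) (w q) ⊆ Set.range w := by
  rintro z (hz | hz | hz)
  · exact ⟨p, (Subtype.ext hz).symm⟩
  · exact ⟨q, (Subtype.ext hz).symm⟩
  · rw [hop] at hz
    exact ⟨op q p, (Subtype.ext hz).symm⟩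

/-- the induced line system on the image of a model is isomorphic to the model -/
theorem transfer_iso (inj : Function.Injective w)
    (hop : ∀ p q, ((w p : G) * (w q : G) * (w p : G)⁻¹) = w (op p q)) (M : Set (Set P))
    (hM : ∀ s, s ∈ M ↔ ∃ p q, op q p ≠ p ∧ s = {r | r = p ∨ r = q ∨ r = op q p}) :
    LineSystem.Isomorphic (LineSystem.restrict (threeTranspositionLines D) (Set.range w)) M := by
  let e : Set.range w ≃ P := (Equiv.ofInjective w inj).symm
  have he : ∀ r (h : w r ∈ Set.range w), e ⟨w r, h⟩ = r := fun r _ =>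
    Equiv.ofInjective_symm_apply inj r
  refine ⟨e, ?_⟩
  intro l
  constructor
  · rintro ⟨l₀, ⟨x, y, hxy, rfl⟩, hsub, rfl⟩
    obtain ⟨p, rfl⟩ := hsub (left_mem_ln x y)
    obtain ⟨q, rfl⟩ := hsub (right_mem_ln _ y)
    rw [hM]
    refine ⟨p, q, fun h => hxy ((model_commute_iff inj hop q p).mpr h).symm, ?_⟩
    ext r
    simp only [Set.mem_image, Set.mem_ofPred_eq]
    constructor
    · rintro ⟨z, hz, rfl⟩
      obtain ⟨r', hr'⟩ := z.2
      have hz' : z = ⟨w r', Set.mem_range_self r'⟩ := Subtype.ext hr'.symm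
      rw [hz'] at hz ⊢
      rw [he]
      exact (mem_ln_model_iff inj hop p q r').mp hz
    · intro hr
      exact ⟨⟨w r, Set.mem_range_self r⟩, (mem_ln_model_iff inj hop p q r).mpr hr, he _ _⟩
  · intro h
    rw [hM] at h
    obtain ⟨p, q, hne, hs⟩ := h
    refine ⟨ln (w p) (w q), ⟨w p, w q, fun h => hne ((model_commute_iff inj hop q p).mp h.symm), rfl⟩,
      ln_subset_range hop p q, ?_⟩
    ext z
    obtain ⟨r, hr⟩ := z.2
    have hz' : z = ⟨w r, Set.mem_range_self r⟩ := Subtype.ext hr.symm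
    rw [hz', ← e.injective.mem_set_image, hs, he]
    exact (mem_ln_model_iff inj hop p q r).symm

/-- the subspace generated by a set of points inside the image of a model -/
theorem span_eq_range (hS : IsThreeTranspositionSet D) (inj : Function.Injective w)
    (hop : ∀ p q, ((w p : G) * (w q : G) * (w p : G)⁻¹) = w (op p q)) (A : Set D)
    (hA : A ⊆ Set.range w)
    (hgen : ∀ T : Set D, A ⊆ T → (∀ p q, w p ∈ T → w q ∈ T → op q p ≠ p → w (op q p) ∈ T) →
      ∀ p, w p ∈ T) :
    LineSystem.span (threeTranspositionLines D) A = Set.range w := by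
  apply Set.Subset.antisymm
  · apply Set.sInter_subset_of_mem
    refine ⟨hA, ?_⟩
    rintro l hl _ ⟨p, rfl⟩ _ ⟨q, rfl⟩ hne hp hq
    rw [(line_eq hS hl hp hq hne).2]
    exact ln_subset_range hop p q
  · rintro _ ⟨p, rfl⟩
    rw [LineSystem.span, Set.mem_sInter]
    rintro T ⟨hAT, hT⟩
    apply hgen T hAT
    intro p q hp hq hne
    have hnc : ¬ Commute (w p : G) (w q : G) := fun h =>
      hne ((model_commute_iff inj hop q p).mp h.symm)
    exact hT (ln (w p) (w q)) ⟨w p, w q, hnc, rfl⟩ (w p) hp (w q) hq (ne_of_not_commute hnc)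
      (left_mem_ln _ _) (right_mem_ln _ _) ((mem_ln_model_iff inj hop p q _).mpr (Or.inr (Or.inr rfl)))

end transfer

end Cfsg.Agent.Lib.Helper91
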