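import Cfsg.Agent.Lib.Helper91.FSpace

/-!
# Two meeting lines without commuting pairs of points span an affine plane of order three
-/

set_option autoImplicit false

namespace Cfsg.Agent.Lib.Helper91

open Cfsg

section ids
variable {G : Type*} [Group G]

/-- the nine involutions of `3^{1+2}:2` (or of `3^2:2`) generated by `a`, `b`, `c` -/
def W9 (a b c : G) (i j : ZMod 3) : G :=
  ![![a, c, a * c * a], ![b, a * b * c * b * a, a * b * (a * c * a) * b * a],
    ![a * b * a, b * a * c * a * b, b * c * b]] i j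

theorem z3_cases : ∀ i : ZMod 3, i = 0 ∨ i = 1 ∨ i = 2 := by decide

theorem W9_tau (a b c : G) (a2 : a * a = 1) (b2 : b * b = 1) (c2 : c * c = 1)
    (r1 : a * b * a = b * a * b) (r2 : a * c * a = c * a * c) (r3 : b * c * b = c * b * c)
    (r4 : b * (a * c * a) * b = (a * c * a) * b * (a * c * a)) (i j : ZMod 3) :
    (a * b) * W9 a b c i j * (b * a) = W9 a b c (i + 1) j := by
  rcases z3_cases i with rfl | rfl | rfl <;> rcases z3_cases j with rfl | rfl | rfl
  · show (a * b) * a * (b * a) = b
    grind (acSteps := 10000000)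
  · show (a * b) * c * (b * a) = (a * b * c * b * a)
    grind (acSteps := 10000000)
  · show (a * b) * (a * c * a) * (b * a) = (a * b * (a * c * a) * b * a)
    grind (acSteps := 10000000)
  · show (a * b) * b * (b * a) = (a * b * a)
    grind (acSteps := 10000000)
  · show (a * b) * (a * b * c * b * a) * (b * a) = (b * a * c * a * b)
    grind (acSteps := 10000000)
  · show (a * b) * (a * b * (a * c * a) * b * a) * (b * a) = (b * c * b)
    grind (acSteps := 10000000)
  · show (a * b) * (a * b * a) * (b * a) = a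
    grind (acSteps := 10000000)
  · show (a * b) * (b * a * c * a * b) * (b * a) = c
    grind (acSteps := 10000000)
  · show (a * b) * (b * c * b) * (b * a) = (a * c * a)
    grind (acSteps := 10000000)

theorem W9_sigma (a b c : G) (a2 : a * a = 1) (b2 : b * b = 1) (c2 : c * c = 1)
    (r1 : a * b * a = b * a * b) (r2 : a * c * a = c * a * c) (r3 : b * c * b = c * b * c)
    (r4 : b * (a * c * a) * b = (a * c * a) * b * (a * c * a)) (i j : ZMod 3) :
    (a * c) * W9 a b c i j * (c * a) = W9 a b c i (j + 1) := by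
  rcases z3_cases i with rfl | rfl | rfl <;> rcases z3_cases j with rfl | rfl | rfl
  · show (a * c) * a * (c * a) = c
    grind (acSteps := 10000000)
  · show (a * c) * c * (c * a) = (a * c * a)
    grind (acSteps := 10000000)
  · show (a * c) * (a * c * a) * (c * a) = a
    grind (acSteps := 10000000)
  · show (a * c) * b * (c * a) = (a * b * c * b * a)
    grind (acSteps := 10000000)
  · show (a * c) * (a * b * c * b * a) * (c * a) = (a * b * (a * c * a) * b * a)
    grind (acSteps := 10000000)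
  · show (a * c) * (a * b * (a * c * a) * b * a) * (c * a) = b
    grind (acSteps := 10000000)
  · show (a * c) * (a * b * a) * (c * a) = (b * a * c * a * b)
    grind (acSteps := 10000000)
  · show (a * c) * (b * a * c * a * b) * (c * a) = (b * c * b)
    grind (acSteps := 10000000)
  · show (a * c) * (b * c * b) * (c * a) = (a * b * a)
    grind (acSteps := 10000000)

theorem W9_neg (a b c : G) (a2 : a * a = 1) (b2 : b * b = 1) (c2 : c * c = 1)
    (r1 : a * b * a = b * a * b) (r2 : a * c * a = c * a * c) (r3 : b * c * b = c * b * c)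
    (r4 : b * (a * c * a) * b = (a * c * a) * b * (a * c * a)) (i j : ZMod 3) :
    a * W9 a b c i j * a = W9 a b c (-i) (-j) := by
  rcases z3_cases i with rfl | rfl | rfl <;> rcases z3_cases j with rfl | rfl | rfl
  · show a * a * a = a
    grind (acSteps := 10000000)
  · show a * c * a = (a * c * a)
    grind (acSteps := 10000000)
  · show a * (a * c * a) * a = c
    grind (acSteps := 10000000)
  · show a * b * a = (a * b * a)
    grind (acSteps := 10000000)
  · show a * (a * b * c * b * a) * a = (b * c * b)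
    grind (acSteps := 10000000)
  · show a * (a * b * (a * c * a) * b * a) * a = (b * a * c * a * b)
    grind (acSteps := 10000000)
  · show a * (a * b * a) * a = b
    grind (acSteps := 10000000)
  · show a * (b * a * c * a * b) * a = (a * b * (a * c * a) * b * a)
    grind (acSteps := 10000000)
  · show a * (b * c * b) * a = (a * b * c * b * a)
    grind (acSteps := 10000000)

theorem W9_inj_ids (a b c : G) (a2 : a * a = 1) (b2 : b * b = 1) (c2 : c * c = 1)
    (r1 : a * b * a = b * a * b) (r2 : a * c * a = c * a * c) (r3 : b * c * b = c * b * c)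
    (r4 : b * (a * c * a) * b = (a * c * a) * b * (a * c * a)) :
    (a * c * a = a → c = a) ∧ (a * b * a = a → b = a) ∧ (a * b * c * b * a = a → a * c * a = b) ∧
    (a * b * (a * c * a) * b * a = a → c = b) ∧ (b * a * c * a * b = a → c = b) ∧
    (b * c * b = a → a * c * a = b) := by
  refine ⟨?_, ?_, ?_, ?_, ?_, ?_⟩ <;> intro h <;> grind (acSteps := 10000000)

/-- abstract form: a family of involutions indexed by the affine plane, compatible with two
translations and the negation, is a homomorphism of "reflection structures" -/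
theorem plane_abstract (W : (Fin 2 → ZMod 3) → G) (t t' u u' n : G) (ht : t * t' = 1)
    (ht' : t' * t = 1) (hu : u * u' = 1) (hu' : u' * u = 1) (hn : n * n = 1) (h0 : W 0 = n)
    (h1 : ∀ q, t * W q * t' = W (q + ![1, 0])) (h2 : ∀ q, u * W q * u' = W (q + ![0, 1]))
    (h3 : ∀ q, n * W q * n = W (-q)) :
    (∀ v, ∃ g : G, ∀ q, g * W q * g⁻¹ = W (q + v)) ∧
      ∀ p q, W p * W q * (W p)⁻¹ = W (-(p + q)) := by
  let V : AddSubmonoid (Fin 2 → ZMod 3) :=
    { carrier := {v | ∃ g : G, ∀ q, g * W q * g⁻¹ = W (q + v)}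
      zero_mem' := ⟨1, fun q => by simp⟩
      add_mem' := by
        rintro v₁ v₂ ⟨g₁, hg₁⟩ ⟨g₂, hg₂⟩
        refine ⟨g₂ * g₁, fun q => ?_⟩
        calc g₂ * g₁ * W q * (g₂ * g₁)⁻¹ = g₂ * (g₁ * W q * g₁⁻¹) * g₂⁻¹ := by group
          _ = W (q + (v₁ + v₂)) := by rw [hg₁, hg₂, add_assoc] }
  have e0 : (![1, 0] : Fin 2 → ZMod 3) ∈ V :=
    ⟨t, fun q => by rw [← h1, eq_inv_of_mul_eq_one_right ht]⟩
  have e1 : (![0, 1] : Fin 2 → ZMod 3) ∈ V :=
    ⟨u, fun q => by rw [← h2, eq_inv_of_mul_eq_one_right hu]⟩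
  have hV : ∀ v, v ∈ V := by
    intro v
    have e : v = (v 0).val • (![1, 0] : Fin 2 → ZMod 3) + (v 1).val • (![0, 1] : Fin 2 → ZMod 3) := by
      ext k
      fin_cases k <;> simp
    rw [e]
    exact V.add_mem (V.nsmul_mem e0 _) (V.nsmul_mem e1 _)
  refine ⟨hV, ?_⟩
  intro p q
  obtain ⟨g, hg⟩ := hV p
  have hp : W p = g * n * g⁻¹ := by rw [← h0, hg, zero_add]
  have hq : W q = g * W (q - p) * g⁻¹ := by rw [hg, sub_add_cancel]
  have hpi : (W p)⁻¹ = g * n * g⁻¹ := by
    rw [hp]
    apply inv_eq_of_mul_eq_one_left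
    calc g * n * g⁻¹ * (g * n * g⁻¹) = g * (n * n) * g⁻¹ := by group
      _ = 1 := by rw [hn]; group
  rw [hpi, hp, hq]
  calc g * n * g⁻¹ * (g * W (q - p) * g⁻¹) * (g * n * g⁻¹) = g * (n * W (q - p) * n) * g⁻¹ := by group
    _ = W (-(p + q)) := by
      rw [h3, hg]
      congr 1
      ext k
      have h3' : (3 : ZMod 3) = 0 := by decide
      simp only [Pi.add_apply, Pi.neg_apply, Pi.sub_apply]
      linear_combination (p k) * h3'

end ids

section model

theorem affine_line_eq (v w : Fin 2 → ZMod 3) :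
    {x | ∃ c : ZMod 3, x = v + c • w} = {r | r = v ∨ r = v + w ∨ r = -(v + w + v)} := by
  have h3 : (3 : ZMod 3) = 0 := by decide
  have e2 : v + (2 : ZMod 3) • w = -(v + w + v) := by
    ext k
    simp only [Pi.add_apply, Pi.neg_apply, Pi.smul_apply, smul_eq_mul]
    linear_combination (v k + w k) * h3
  ext x
  simp only [Set.mem_ofPred_eq]
  constructor
  · rintro ⟨c, rfl⟩
    rcases z3_cases c with rfl | rfl | rfl
    · left; simp
    · right; left; simp
    · right; right; exact e2
  · rintro (rfl | rfl | rfl)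
    · exact ⟨0, by simp⟩
    · exact ⟨1, by simp⟩
    · exact ⟨2, e2.symm⟩

theorem affine_hM (s : Set (Fin 2 → ZMod 3)) : s ∈ affinePlaneThree ↔
    ∃ p q, -(q + p) ≠ p ∧ s = {r | r = p ∨ r = q ∨ r = -(q + p)} := by
  have h3 : (3 : ZMod 3) = 0 := by decide
  constructor
  · rintro ⟨v, w, hw, rfl⟩
    refine ⟨v, v + w, ?_, affine_line_eq v w⟩
    intro h
    apply hw
    ext k
    have hk := congrFun h k
    simp only [Pi.add_apply, Pi.neg_apply] at hk
    simp only [Pi.zero_apply]
    linear_combination (-1) * hk - (v k) * h3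
  · rintro ⟨p, q, hne, rfl⟩
    refine ⟨p, q - p, ?_, ?_⟩
    · intro h
      apply hne
      rw [sub_eq_zero.mp h]
      ext k
      simp only [Pi.add_apply, Pi.neg_apply]
      linear_combination (-(p k)) * h3
    · rw [affine_line_eq, add_sub_cancel]

set_option maxRecDepth 100000 in
theorem affine_all : ∀ p : Fin 2 → ZMod 3, p = 0 ∨ p = ![1, 0] ∨ p = ![0, 1] ∨ p = ![2, 0] ∨
    p = ![0, 2] ∨ p = ![1, 1] ∨ p = ![2, 2] ∨ p = ![1, 2] ∨ p = ![2, 1] := by
  decide +kernel

theorem affine_gen (T : Set (Fin 2 → ZMod 3)) (h0 : 0 ∈ T) (h1 : ![1, 0] ∈ T) (h2 : ![0, 1] ∈ T)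
    (hcl : ∀ p q, p ∈ T → q ∈ T → -(q + p) ≠ p → -(q + p) ∈ T) : ∀ p, p ∈ T := by
  have t20 : (![2, 0] : Fin 2 → ZMod 3) ∈ T := by
    have h := hcl 0 ![1, 0] h0 h1 (by decide)
    have e : -((![1, 0] : Fin 2 → ZMod 3) + 0) = ![2, 0] := by decide
    rwa [e] at h
  have t02 : (![0, 2] : Fin 2 → ZMod 3) ∈ T := by
    have h := hcl 0 ![0, 1] h0 h2 (by decide)
    have e : -((![0, 1] : Fin 2 → ZMod 3) + 0) = ![0, 2] := by decide
    rwa [e] at h
  have t11 : (![1, 1] : Fin 2 → ZMod 3) ∈ T := by
    have h := hcl ![2, 0] ![0, 2] t20 t02 (by decide)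
    have e : -((![0, 2] : Fin 2 → ZMod 3) + ![2, 0]) = ![1, 1] := by decide
    rwa [e] at h
  have t22 : (![2, 2] : Fin 2 → ZMod 3) ∈ T := by
    have h := hcl ![1, 0] ![0, 1] h1 h2 (by decide)
    have e : -((![0, 1] : Fin 2 → ZMod 3) + ![1, 0]) = ![2, 2] := by decide
    rwa [e] at h
  have t12 : (![1, 2] : Fin 2 → ZMod 3) ∈ T := by
    have h := hcl ![2, 0] ![0, 1] t20 h2 (by decide)
    have e : -((![0, 1] : Fin 2 → ZMod 3) + ![2, 0]) = ![1, 2] := by decide
    rwa [e] at h
  have t21 : (![2, 1] : Fin 2 → ZMod 3) ∈ T := by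
    have h := hcl ![1, 0] ![0, 2] h1 t02 (by decide)
    have e : -((![0, 2] : Fin 2 → ZMod 3) + ![1, 0]) = ![2, 1] := by decide
    rwa [e] at h
  intro p
  rcases affine_all p with rfl | rfl | rfl | rfl | rfl | rfl | rfl | rfl | rfl <;> assumption

end model

/-- two lines `ab`, `ac` without commuting pairs of points span an affine plane of order three -/
theorem span_affine {G : Type*} [Group G] {D : Set G} (hS : IsThreeTranspositionSet D)
    (hconj : ∀ g : G, ∀ d ∈ D, g * d * g⁻¹ ∈ D) (a b c : D) (hab : ¬ Commute (a : G) (b : G))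
    (hac : ¬ Commute (a : G) (c : G)) (hbc : ¬ Commute (b : G) (c : G))
    (h4 : ¬ Commute (b : G) ((a : G) * c * (a : G)⁻¹)) :
    LineSystem.Isomorphic (LineSystem.restrict (threeTranspositionLines D)
      (LineSystem.span (threeTranspositionLines D) (ln a b ∪ ln a c))) affinePlaneThree := by
  have a2 := tt_sq hS a.2
  have b2 := tt_sq hS b.2
  have c2 := tt_sq hS c.2
  have ai := tt_inv hS a.2
  have hD4 : (a : G) * c * a ∈ D := by
    have := hconj a c c.2
    rwa [ai] at this
  rw [ai] at h4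
  have r1 := tt_braid hS a.2 b.2 hab
  have r2 := tt_braid hS a.2 c.2 hac
  have r3 := tt_braid hS b.2 c.2 hbc
  have r4 := tt_braid hS b.2 hD4 h4
  let W : (Fin 2 → ZMod 3) → G := fun p => W9 (a : G) b c (p 0) (p 1)
  obtain ⟨htr, hop'⟩ := plane_abstract W ((a : G) * b) (b * a) (a * c) (c * a) a
    (by rw [mul_assoc, ← mul_assoc (b : G), b2, one_mul, a2])
    (by rw [mul_assoc, ← mul_assoc (a : G), a2, one_mul, b2])
    (by rw [mul_assoc, ← mul_assoc (c : G), c2, one_mul, a2])
    (by rw [mul_assoc, ← mul_assoc (a : G), a2, one_mul, c2]) a2 rfl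
    (fun q => by
      have h := W9_tau (a : G) b c a2 b2 c2 r1 r2 r3 r4 (q 0) (q 1)
      have e : W (q + ![1, 0]) = W9 (a : G) b c (q 0 + 1) (q 1) := by
        show W9 (a : G) b c (q 0 + 1) (q 1 + 0) = _
        rw [add_zero]
      rw [e]
      exact h)
    (fun q => by
      have h := W9_sigma (a : G) b c a2 b2 c2 r1 r2 r3 r4 (q 0) (q 1)
      have e : W (q + ![0, 1]) = W9 (a : G) b c (q 0) (q 1 + 1) := by
        show W9 (a : G) b c (q 0 + 0) (q 1 + 1) = _
        rw [add_zero]
      rw [e]
      exact h)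
    (fun q => W9_neg (a : G) b c a2 b2 c2 r1 r2 r3 r4 (q 0) (q 1))
  have hmem : ∀ p, W p ∈ D := by
    intro p
    obtain ⟨g, hg⟩ := htr p
    have h := hg 0
    rw [zero_add] at h
    rw [← h]
    exact hconj g _ a.2
  obtain ⟨i1, i2, i3, i4, i5, i6⟩ := W9_inj_ids (a : G) b c a2 b2 c2 r1 r2 r3 r4
  have key : ∀ v, W v = a → v = 0 := by
    intro v hv
    have hv' : W9 (a : G) b c (v 0) (v 1) = a := hv
    have hca : (c : G) ≠ a := fun h => hac (by rw [h])
    have hba : (b : G) ≠ a := fun h => hab (by rw [h])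
    have hcb : (c : G) ≠ b := fun h => hbc (by rw [h])
    have h4b : (a : G) * c * a ≠ b := fun h => h4 (by rw [h])
    rcases z3_cases (v 0) with h | h | h <;> rcases z3_cases (v 1) with h' | h' | h' <;>
      rw [h, h'] at hv'
    · ext k
      fin_cases k
      · exact h
      · exact h'
    · exact absurd hv' hca
    · exact absurd (i1 hv') hca
    · exact absurd hv' hba
    · exact absurd (i3 hv') h4b
    · exact absurd (i4 hv') hcb
    · exact absurd (i2 hv') hba
    · exact absurd (i5 hv') hcb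
    · exact absurd (i6 hv') h4b
  let w : (Fin 2 → ZMod 3) → D := fun p => ⟨W p, hmem p⟩
  have inj : Function.Injective w := by
    intro p q h
    have h1 : W p = W q := congrArg Subtype.val h
    obtain ⟨g, hg⟩ := htr (-p)
    have h2 := hg p
    have h3 := hg q
    rw [add_neg_cancel] at h2
    rw [← h1, h2] at h3
    have h5 := key _ h3.symm
    exact (neg_add_eq_zero.mp (by rw [add_comm]; exact h5))
  have hop : ∀ p q, ((w p : G) * (w q : G) * (w p : G)⁻¹) = w ((fun p q => -(p + q)) p q) := hop'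
  have w00 : w 0 = a := rfl
  have w10 : w ![1, 0] = b := rfl
  have w01 : w ![0, 1] = c := rfl
  have hspan : LineSystem.span (threeTranspositionLines D) (ln a b ∪ ln a c) = Set.range w := by
    apply span_eq_range hS inj hop
    · rw [← w00, ← w10, ← w01]
      exact Set.union_subset (ln_subset_range hop _ _) (ln_subset_range hop _ _)
    · intro T hT hcl
      exact affine_gen {p | w p ∈ T} (hT (Or.inl (left_mem_ln a b))) (hT (Or.inl (right_mem_ln a b)))
        (hT (Or.inr (right_mem_ln a c))) hcl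
  rw [hspan]
  exact transfer_iso inj hop _ affine_hM

end Cfsg.Agent.Lib.Helper91
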