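import Mathlib

/-!
# The Coxeter presentation of `Equiv.Perm (Fin 4)`

`exists_hom_perm_four`: three involutions `a b c` of a group with `aba = bab`, `bcb = cbc`, `ac = ca`
define a homomorphism from `Equiv.Perm (Fin 4)` sending the adjacent transpositions to them.
-/

set_option autoImplicit false

namespace Cfsg.Agent.Lib.Helper91

/-- If a list contains `1` and is closed under left multiplication by involutions generating the
group, it contains every element. -/
theorem forall_mem_of_closed {P : Type*} [Group P] (gens : Set P)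
    (hgen : Subgroup.closure gens = ⊤) (hinv : ∀ g ∈ gens, g * g = 1) (L : List P)
    (h1 : (1 : P) ∈ L) (hcl : ∀ g ∈ gens, ∀ s ∈ L, g * s ∈ L) : ∀ x : P, x ∈ L := by
  have key : ∀ x ∈ Subgroup.closure gens, (∀ s ∈ L, x * s ∈ L) ∧ (∀ s ∈ L, x⁻¹ * s ∈ L) := by
    intro x hx
    induction hx using Subgroup.closure_induction with
    | mem g hg =>
      have : g⁻¹ = g := inv_eq_of_mul_eq_one_left (hinv g hg)
      rw [this]
      exact ⟨hcl g hg, hcl g hg⟩
    | one => simp
    | mul a b _ _ iha ihb =>
      constructor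
      · intro s hs
        rw [mul_assoc]
        exact iha.1 _ (ihb.1 s hs)
      · intro s hs
        rw [mul_inv_rev, mul_assoc]
        exact ihb.2 _ (iha.2 s hs)
    | inv a _ ih =>
      refine ⟨ih.2, ?_⟩
      rw [inv_inv]
      exact ih.1
  intro x
  have := (key x (by rw [hgen]; trivial)).1 1 h1
  rwa [mul_one] at this

theorem card_le_of_forall_mem {P : Type*} (L : List P) (h : ∀ x : P, x ∈ L) :
    Finite P ∧ Nat.card P ≤ L.length := by
  have hs : Function.Surjective (fun i : Fin L.length => L.get i) := by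
    intro x
    obtain ⟨i, hi⟩ := List.mem_iff_get.mp (h x)
    exact ⟨i, hi⟩
  refine ⟨Finite.of_surjective _ hs, ?_⟩
  have := Nat.card_le_card_of_surjective _ hs
  simpa using this

/-- the 24 elements of a quotient of the Coxeter group of type `A₃` -/
def s4list {P : Type*} [Group P] (x y z : P) : List P :=
  [1, x, y, z, y * x, z * x, x * y, z * y, y * z, x * (y * x), z * (y * x), y * (z * x), z * (x * y), y * (z * y), x * (y * z), z * (x * (y * x)), y * (z * (y * x)), x * (y * (z * x)), y * (z * (x * y)), x * (y * (z * y)), y * (z * (x * (y * x))), x * (y * (z * (y * x))), x * (y * (z * (x * y))), x * (y * (z * (x * (y * x))))]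

theorem s4list_closed {P : Type*} [Group P] (x y z : P) (hx : x * x = 1) (hy : y * y = 1)
    (hz : z * z = 1) (hxy : x * y * x = y * x * y) (hyz : y * z * y = z * y * z)
    (hxz : x * z = z * x) :
    ∀ g ∈ ({x, y, z} : Set P), ∀ s ∈ s4list x y z, g * s ∈ s4list x y z := by
  intro g hg s hs
  simp only [s4list, List.mem_cons, List.not_mem_nil, or_false] at hs ⊢
  simp only [Set.mem_insert_iff, Set.mem_singleton_iff] at hg
  rcases hg with rfl | rfl | rfl <;>
  rcases hs with rfl | rfl | rfl | rfl | rfl | rfl | rfl | rfl | rfl | rfl | rfl | rfl | rfl | rfl |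
    rfl | rfl | rfl | rfl | rfl | rfl | rfl | rfl | rfl | rfl <;>
  grind (acSteps := 100000)

/-- relators of the Coxeter presentation of type `A₃` -/
def s4rels : Set (FreeGroup (Fin 3)) :=
  {FreeGroup.of 0 * FreeGroup.of 0, FreeGroup.of 1 * FreeGroup.of 1, FreeGroup.of 2 * FreeGroup.of 2,
   FreeGroup.of 0 * FreeGroup.of 1 * FreeGroup.of 0 * (FreeGroup.of 1 * FreeGroup.of 0 * FreeGroup.of 1)⁻¹,
   FreeGroup.of 1 * FreeGroup.of 2 * FreeGroup.of 1 * (FreeGroup.of 2 * FreeGroup.of 1 * FreeGroup.of 2)⁻¹,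
   FreeGroup.of 0 * FreeGroup.of 2 * (FreeGroup.of 2 * FreeGroup.of 0)⁻¹}

theorem s4_lift_rels {G : Type*} [Group G] (a b c : G) (ha : a * a = 1) (hb : b * b = 1)
    (hc : c * c = 1) (hab : a * b * a = b * a * b) (hbc : b * c * b = c * b * c)
    (hac : a * c = c * a) : ∀ r ∈ s4rels, FreeGroup.lift ![a, b, c] r = 1 := by
  intro r hr
  simp only [s4rels, Set.mem_insert_iff, Set.mem_singleton_iff] at hr
  rcases hr with rfl | rfl | rfl | rfl | rfl | rfl
  · simpa using ha
  · simpa using hb
  · simpa using hc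
  · simp only [map_mul, map_inv, FreeGroup.lift_apply_of, Matrix.cons_val_zero, Matrix.cons_val_one]
    rw [hab, mul_inv_cancel]
  · simp only [map_mul, map_inv, FreeGroup.lift_apply_of, Matrix.cons_val_one, Matrix.cons_val]
    rw [hbc, mul_inv_cancel]
  · simp only [map_mul, map_inv, FreeGroup.lift_apply_of, Matrix.cons_val_zero, Matrix.cons_val]
    rw [hac, mul_inv_cancel]

theorem s4_presented_rel :
    let x : PresentedGroup s4rels := PresentedGroup.of 0
    let y : PresentedGroup s4rels := PresentedGroup.of 1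
    let z : PresentedGroup s4rels := PresentedGroup.of 2
    x * x = 1 ∧ y * y = 1 ∧ z * z = 1 ∧ x * y * x = y * x * y ∧ y * z * y = z * y * z ∧
      x * z = z * x := by
  intro x y z
  refine ⟨?_, ?_, ?_, ?_, ?_, ?_⟩
  · exact PresentedGroup.one_of_mem (rels := s4rels) (x := FreeGroup.of 0 * FreeGroup.of 0)
      (by simp [s4rels])
  · exact PresentedGroup.one_of_mem (rels := s4rels) (x := FreeGroup.of 1 * FreeGroup.of 1)
      (by simp [s4rels])
  · exact PresentedGroup.one_of_mem (rels := s4rels) (x := FreeGroup.of 2 * FreeGroup.of 2)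
      (by simp [s4rels])
  · exact PresentedGroup.mk_eq_mk_of_mul_inv_mem (rels := s4rels)
      (x := FreeGroup.of 0 * FreeGroup.of 1 * FreeGroup.of 0)
      (y := FreeGroup.of 1 * FreeGroup.of 0 * FreeGroup.of 1) (by simp [s4rels])
  · exact PresentedGroup.mk_eq_mk_of_mul_inv_mem (rels := s4rels)
      (x := FreeGroup.of 1 * FreeGroup.of 2 * FreeGroup.of 1)
      (y := FreeGroup.of 2 * FreeGroup.of 1 * FreeGroup.of 2) (by simp [s4rels])
  · exact PresentedGroup.mk_eq_mk_of_mul_inv_mem (rels := s4rels)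
      (x := FreeGroup.of 0 * FreeGroup.of 2)
      (y := FreeGroup.of 2 * FreeGroup.of 0) (by simp [s4rels])

theorem s4_presented_card : Finite (PresentedGroup s4rels) ∧ Nat.card (PresentedGroup s4rels) ≤ 24 := by
  obtain ⟨hx, hy, hz, hxy, hyz, hxz⟩ := s4_presented_rel
  have hgen : Subgroup.closure ({PresentedGroup.of 0, PresentedGroup.of 1, PresentedGroup.of 2} :
      Set (PresentedGroup s4rels)) = ⊤ := by
    rw [← PresentedGroup.closure_range_of s4rels]
    congr 1
    ext q
    simp only [Set.mem_insert_iff, Set.mem_singleton_iff, Set.mem_range]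
    constructor
    · rintro (rfl | rfl | rfl)
      · exact ⟨0, rfl⟩
      · exact ⟨1, rfl⟩
      · exact ⟨2, rfl⟩
    · rintro ⟨i, rfl⟩
      fin_cases i
      · left; rfl
      · right; left; rfl
      · right; right; rfl
  have hall := forall_mem_of_closed _ hgen (by
      intro g hg
      simp only [Set.mem_insert_iff, Set.mem_singleton_iff] at hg
      rcases hg with rfl | rfl | rfl
      · exact hx
      · exact hy
      · exact hz) (s4list _ _ _) (by simp [s4list]) (s4list_closed _ _ _ hx hy hz hxy hyz hxz)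
  exact card_le_of_forall_mem _ hall

/-- the canonical map from the presented group to the symmetric group -/
noncomputable def s4toPerm : PresentedGroup s4rels →* Equiv.Perm (Fin 4) :=
  PresentedGroup.toGroup (f := ![Equiv.swap 0 1, Equiv.swap 1 2, Equiv.swap 2 3])
    (s4_lift_rels _ _ _ (by decide) (by decide) (by decide) (by decide) (by decide) (by decide))

theorem s4toPerm_bijective : Function.Bijective s4toPerm := by
  obtain ⟨hfin, hcard⟩ := s4_presented_card
  apply Function.Surjective.bijective_of_nat_card_le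
  · rw [← MonoidHom.mrange_eq_top, eq_top_iff, ← Equiv.Perm.mclosure_swap_castSucc_succ 3,
      Submonoid.closure_le]
    rintro _ ⟨i, rfl⟩
    fin_cases i
    · exact ⟨PresentedGroup.of 0, by simp [s4toPerm]⟩
    · exact ⟨PresentedGroup.of 1, by simp [s4toPerm]⟩
    · exact ⟨PresentedGroup.of 2, by simp [s4toPerm]⟩
  · have : Nat.card (Equiv.Perm (Fin 4)) = 24 := by
      rw [Nat.card_eq_fintype_card, Fintype.card_perm, Fintype.card_fin]; rfl
    rw [this]; exact hcard

/-- **von Dyck for `S₄`.** -/
theorem exists_hom_perm_four {G : Type*} [Group G] (a b c : G) (ha : a * a = 1) (hb : b * b = 1)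
    (hc : c * c = 1) (hab : a * b * a = b * a * b) (hbc : b * c * b = c * b * c)
    (hac : a * c = c * a) :
    ∃ φ : Equiv.Perm (Fin 4) →* G, φ (Equiv.swap 0 1) = a ∧ φ (Equiv.swap 1 2) = b ∧
      φ (Equiv.swap 2 3) = c := by
  let e : PresentedGroup s4rels ≃* Equiv.Perm (Fin 4) := MulEquiv.ofBijective s4toPerm s4toPerm_bijective
  let ψ : PresentedGroup s4rels →* G := PresentedGroup.toGroup (s4_lift_rels a b c ha hb hc hab hbc hac)
  refine ⟨ψ.comp e.symm.toMonoidHom, ?_, ?_, ?_⟩
  · have h1 : e (PresentedGroup.of 0) = Equiv.swap 0 1 := by simp [e, s4toPerm]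
    have h2 : e.symm (Equiv.swap 0 1) = PresentedGroup.of 0 := by rw [← h1, MulEquiv.symm_apply_apply]
    simp [h2, ψ]
  · have h1 : e (PresentedGroup.of 1) = Equiv.swap 1 2 := by simp [e, s4toPerm]
    have h2 : e.symm (Equiv.swap 1 2) = PresentedGroup.of 1 := by rw [← h1, MulEquiv.symm_apply_apply]
    simp [h2, ψ]
  · have h1 : e (PresentedGroup.of 2) = Equiv.swap 2 3 := by simp [e, s4toPerm]
    have h2 : e.symm (Equiv.swap 2 3) = PresentedGroup.of 2 := by rw [← h1, MulEquiv.symm_apply_apply]
    simp [h2, ψ]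

set_option maxRecDepth 100000 in
theorem perm_four_normal_aux : ∀ σ : Equiv.Perm (Fin 4), σ ≠ 1 → ∃ τ ρ : Equiv.Perm (Fin 4),
    τ * σ * τ⁻¹ * (ρ * σ * ρ⁻¹) = Equiv.swap 0 1 * Equiv.swap 2 3 := by
  decide

/-- a homomorphism from `S₄` not killing `(0 1)(2 3)` is injective -/
theorem perm_four_injective {G : Type*} [Group G] (φ : Equiv.Perm (Fin 4) →* G)
    (h : φ (Equiv.swap 0 1 * Equiv.swap 2 3) ≠ 1) : Function.Injective φ := by
  rw [injective_iff_map_eq_one]
  intro σ hσ
  by_contra hne
  obtain ⟨τ, ρ, e⟩ := perm_four_normal_aux σ hne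
  apply h
  rw [← e]
  simp [hσ]

end Cfsg.Agent.Lib.Helper91
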