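import Cfsg.Agent.Lib.Helper91.FSpace
import Cfsg.Agent.Lib.Helper91.SymPres

/-!
# Two meeting lines with a commuting pair of points span a dual affine plane of order two
-/

set_option autoImplicit false

namespace Cfsg.Agent.Lib.Helper91

open Cfsg

/-- the transposition attached to a two-element subset, as a function -/
def trFun (s : DualAffinePoint) (i : Fin 4) : Fin 4 := if i ∈ s.1 then (∑ j ∈ s.1, j) - i else i

theorem trFun_invol : ∀ (s : DualAffinePoint) (i : Fin 4), trFun s (trFun s i) = i := by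
  decide

/-- the transposition attached to a two-element subset -/
def trD (s : DualAffinePoint) : Equiv.Perm (Fin 4) := ⟨trFun s, trFun s, trFun_invol s, trFun_invol s⟩

/-- the action of a transposition on two-element subsets -/
def opD (s t : DualAffinePoint) : DualAffinePoint :=
  ⟨t.1.image (trD s), by rw [Finset.card_image_of_injective _ (trD s).injective]; exact t.2⟩

def p01 : DualAffinePoint := ⟨{0, 1}, rfl⟩
def p12 : DualAffinePoint := ⟨{1, 2}, rfl⟩
def p23 : DualAffinePoint := ⟨{2, 3}, rfl⟩

set_option maxRecDepth 100000 in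
theorem trD_conj : ∀ s : DualAffinePoint, ∃ g : Equiv.Perm (Fin 4),
    trD s = g * Equiv.swap 0 1 * g⁻¹ := by
  decide +kernel

set_option maxRecDepth 100000 in
theorem trD_inj : ∀ s t : DualAffinePoint, trD s = trD t → s = t := by
  decide +kernel

set_option maxRecDepth 100000 in
theorem trD_op : ∀ s t : DualAffinePoint, trD s * trD t * (trD s)⁻¹ = trD (opD s t) := by
  decide +kernel

set_option maxRecDepth 100000 in
theorem dual_lines_1 : ∀ i : Fin 4, ∃ p q : DualAffinePoint, opD q p ≠ p ∧
    ∀ s : DualAffinePoint, i ∉ s.1 ↔ (s = p ∨ s = q ∨ s = opD q p) := by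
  decide +kernel

set_option maxRecDepth 100000 in
theorem dual_lines_2 : ∀ p q : DualAffinePoint, opD q p ≠ p → ∃ i : Fin 4,
    ∀ s : DualAffinePoint, i ∉ s.1 ↔ (s = p ∨ s = q ∨ s = opD q p) := by
  decide +kernel

set_option maxRecDepth 100000 in
theorem dual_named : trD p01 = Equiv.swap 0 1 ∧ trD p12 = Equiv.swap 1 2 ∧ trD p23 = Equiv.swap 2 3 ∧
    opD p12 p01 ≠ p01 ∧ opD p12 p23 ≠ p23 ∧ opD p01 (opD p12 p23) ≠ opD p12 p23 ∧
    ∀ s : DualAffinePoint, s = p01 ∨ s = p12 ∨ s = p23 ∨ s = opD p12 p01 ∨ s = opD p12 p23 ∨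
      s = opD p01 (opD p12 p23) := by
  decide +kernel

theorem dual_hM (s : Set DualAffinePoint) : s ∈ dualAffinePlaneTwo ↔
    ∃ p q, opD q p ≠ p ∧ s = {r | r = p ∨ r = q ∨ r = opD q p} := by
  constructor
  · rintro ⟨i, rfl⟩
    obtain ⟨p, q, h1, h2⟩ := dual_lines_1 i
    exact ⟨p, q, h1, Set.ext h2⟩
  · rintro ⟨p, q, h1, rfl⟩
    obtain ⟨i, h2⟩ := dual_lines_2 p q h1
    exact ⟨i, (Set.ext h2).symm⟩

/-- two lines `ab`, `ac` with `b`, `c` distinct and commuting span a dual affine plane -/
theorem span_dual {G : Type*} [Group G] {D : Set G} (hS : IsThreeTranspositionSet D)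
    (hconj : ∀ g : G, ∀ d ∈ D, g * d * g⁻¹ ∈ D) (a b c : D) (hab : ¬ Commute (a : G) (b : G))
    (hac : ¬ Commute (a : G) (c : G)) (hbc : Commute (b : G) (c : G)) (hne : b ≠ c) :
    LineSystem.Isomorphic (LineSystem.restrict (threeTranspositionLines D)
      (LineSystem.span (threeTranspositionLines D) (ln a b ∪ ln a c))) dualAffinePlaneTwo := by
  obtain ⟨φ, h01, h12, h23⟩ := exists_hom_perm_four (b : G) a c (tt_sq hS b.2) (tt_sq hS a.2)
    (tt_sq hS c.2) (tt_braid hS b.2 a.2 (fun h => hab h.symm)) (tt_braid hS a.2 c.2 hac) hbc.eq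
  have φinj : Function.Injective φ := by
    apply perm_four_injective
    rw [map_mul, h01, h23]
    intro h
    apply hne
    apply Subtype.ext
    rw [eq_inv_of_mul_eq_one_left h, tt_inv hS c.2]
  have hmem : ∀ s, φ (trD s) ∈ D := by
    intro s
    obtain ⟨g, hg⟩ := trD_conj s
    rw [hg, map_mul, map_mul, map_inv, h01]
    exact hconj _ _ b.2
  let w : DualAffinePoint → D := fun s => ⟨φ (trD s), hmem s⟩
  have inj : Function.Injective w := by
    intro s t h
    exact trD_inj s t (φinj (congrArg Subtype.val h))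
  have hop : ∀ p q, ((w p : G) * (w q : G) * (w p : G)⁻¹) = w (opD p q) := by
    intro p q
    show φ (trD p) * φ (trD q) * (φ (trD p))⁻¹ = φ (trD (opD p q))
    rw [← trD_op, map_mul, map_mul, map_inv]
  obtain ⟨n01, n12, n23, g1, g2, g3, gall⟩ := dual_named
  have w01 : w p01 = b := Subtype.ext (by show φ (trD p01) = b; rw [n01, h01])
  have w12 : w p12 = a := Subtype.ext (by show φ (trD p12) = a; rw [n12, h12])
  have w23 : w p23 = c := Subtype.ext (by show φ (trD p23) = c; rw [n23, h23])
  have hspan : LineSystem.span (threeTranspositionLines D) (ln a b ∪ ln a c) = Set.range w := by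
    apply span_eq_range hS inj hop
    · rw [← w01, ← w12, ← w23]
      exact Set.union_subset (ln_subset_range hop _ _) (ln_subset_range hop _ _)
    · intro T hT hcl
      have t01 : w p01 ∈ T := by rw [w01]; exact hT (Or.inl (right_mem_ln a b))
      have t12 : w p12 ∈ T := by rw [w12]; exact hT (Or.inl (left_mem_ln a b))
      have t23 : w p23 ∈ T := by rw [w23]; exact hT (Or.inr (right_mem_ln a c))
      have t13 := hcl p23 p12 t23 t12 g2
      intro s
      rcases gall s with rfl | rfl | rfl | rfl | rfl | rfl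
      · exact t01
      · exact t12
      · exact t23
      · exact hcl p01 p12 t01 t12 g1
      · exact t13
      · exact hcl _ p01 t13 t01 g3
  rw [hspan]
  exact transfer_iso inj hop _ dual_hM

end Cfsg.Agent.Lib.Helper91
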