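import Cfsg.Agent.Lib.Helper91.FSpaceS4
import Cfsg.Agent.Lib.Helper91.FSpace9

/-!
# The involutions `t(x)` of a Fischer space
-/

set_option autoImplicit false

namespace Cfsg.Agent.Lib.Helper91

open Cfsg Cfsg.LineSystem

section fs
variable {X : Type*} {L : Set (Set X)}

/-- `{x, y, z}` is a line with three different points -/
def Tri (L : Set (Set X)) (x y z : X) : Prop := z ≠ x ∧ z ≠ y ∧ x ≠ y ∧ ({x, y, z} : Set X) ∈ L

theorem Tri.unique (hP : IsPartialLinear L) {x y z z' : X} (h : Tri L x y z) (h' : Tri L x y z') :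
    z = z' := by
  have e := hP _ h.2.2.2 _ h'.2.2.2 x y h.2.2.1 (by simp) (by simp) (by simp) (by simp)
  have h1 : z ∈ ({x, y, z'} : Set X) := e ▸ (by simp)
  simp only [Set.mem_insert_iff, Set.mem_singleton_iff] at h1
  rcases h1 with h1 | h1 | h1
  · exact absurd h1 h.1
  · exact absurd h1 h.2.1
  · exact h1

theorem Tri.swap23 {x y z : X} (h : Tri L x y z) : Tri L x z y := by
  refine ⟨h.2.2.1.symm, h.2.1.symm, h.1.symm, ?_⟩
  have e : ({x, z, y} : Set X) = {x, y, z} := by
    ext t; simp only [Set.mem_insert_iff, Set.mem_singleton_iff]; tauto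
  rw [e]
  exact h.2.2.2

theorem Tri.swap12 {x y z : X} (h : Tri L x y z) : Tri L y x z := by
  refine ⟨h.2.1, h.1, h.2.2.1.symm, ?_⟩
  have e : ({y, x, z} : Set X) = {x, y, z} := by
    ext t; simp only [Set.mem_insert_iff, Set.mem_singleton_iff]; tauto
  rw [e]
  exact h.2.2.2

theorem lineMap_of_tri (hP : IsPartialLinear L) {x y z : X} (h : Tri L x y z) :
    lineMap L x y = z := by
  have hex : ∃ z : X, z ≠ x ∧ z ≠ y ∧ x ≠ y ∧ ({x, y, z} : Set X) ∈ L := ⟨z, h⟩
  unfold lineMap
  rw [dif_pos hex]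
  exact Tri.unique hP hex.choose_spec h

theorem lineMap_of_not {x y : X} (h : ¬ ∃ z, Tri L x y z) : lineMap L x y = y := by
  unfold lineMap
  exact dif_neg h

theorem lineMap_self (x : X) : lineMap L x x = x :=
  lineMap_of_not (fun ⟨_, h⟩ => h.2.2.1 rfl)

theorem exists_tri_of_line (h3 : ∀ l ∈ L, l.ncard = 3) {l : Set X} (hl : l ∈ L) {x y : X}
    (hx : x ∈ l) (hy : y ∈ l) (hxy : x ≠ y) : ∃ z, Tri L x y z ∧ l = {x, y, z} := by
  obtain ⟨a, b, c, hab, hac, hbc, rfl⟩ := Set.ncard_eq_three.mp (h3 l hl)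
  simp only [Set.mem_insert_iff, Set.mem_singleton_iff] at hx hy
  rcases hx with rfl | rfl | rfl <;> rcases hy with rfl | rfl | rfl
  · exact absurd rfl hxy
  · exact ⟨c, ⟨hac.symm, hbc.symm, hab, hl⟩, rfl⟩
  · have e : ({x, b, y} : Set X) = {x, y, b} := by
      ext t; simp only [Set.mem_insert_iff, Set.mem_singleton_iff]; tauto
    exact ⟨b, ⟨hab.symm, hbc, hac, e ▸ hl⟩, e⟩
  · have e : ({y, x, c} : Set X) = {x, y, c} := by
      ext t; simp only [Set.mem_insert_iff, Set.mem_singleton_iff]; tauto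
    exact ⟨c, ⟨hbc.symm, hac.symm, hab.symm, e ▸ hl⟩, e⟩
  · exact absurd rfl hxy
  · have e : ({a, x, y} : Set X) = {x, y, a} := by
      ext t; simp only [Set.mem_insert_iff, Set.mem_singleton_iff]; tauto
    exact ⟨a, ⟨hab, hac, hbc, e ▸ hl⟩, e⟩
  · have e : ({y, b, x} : Set X) = {x, y, b} := by
      ext t; simp only [Set.mem_insert_iff, Set.mem_singleton_iff]; tauto
    exact ⟨b, ⟨hbc, hab.symm, hac.symm, e ▸ hl⟩, e⟩
  · have e : ({a, y, x} : Set X) = {x, y, a} := by
      ext t; simp only [Set.mem_insert_iff, Set.mem_singleton_iff]; tauto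
    exact ⟨a, ⟨hac, hab, hbc.symm, e ▸ hl⟩, e⟩
  · exact absurd rfl hxy

theorem lineMap_invol (hP : IsPartialLinear L) (x y : X) : lineMap L x (lineMap L x y) = y := by
  by_cases h : ∃ z, Tri L x y z
  · obtain ⟨z, hz⟩ := h
    rw [lineMap_of_tri hP hz, lineMap_of_tri hP hz.swap23]
  · rw [lineMap_of_not h, lineMap_of_not h]

/-- `t(x)` as a permutation -/
noncomputable def tPerm (hP : IsPartialLinear L) (x : X) : Equiv.Perm X :=
  ⟨lineMap L x, lineMap L x, lineMap_invol hP x, lineMap_invol hP x⟩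

theorem Tri.map {x y z : X} (h : Tri L x y z) (τ : Equiv.Perm X) (hτ : IsIso L L τ) :
    Tri L (τ x) (τ y) (τ z) := by
  refine ⟨fun e => h.1 (τ.injective e), fun e => h.2.1 (τ.injective e),
    fun e => h.2.2.1 (τ.injective e), ?_⟩
  have := (hτ _).mp h.2.2.2
  rwa [Set.image_insert_eq, Set.image_pair] at this

theorem isIso_symm (τ : Equiv.Perm X) (hτ : IsIso L L τ) : IsIso L L τ.symm := by
  intro l
  rw [hτ (τ.symm '' l), Equiv.image_symm_image]

theorem lineMap_conj (hP : IsPartialLinear L) (τ : Equiv.Perm X) (hτ : IsIso L L τ) (y v : X) :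
    τ (lineMap L y v) = lineMap L (τ y) (τ v) := by
  by_cases h : ∃ z, Tri L y v z
  · obtain ⟨z, hz⟩ := h
    rw [lineMap_of_tri hP hz, lineMap_of_tri hP (hz.map τ hτ)]
  · rw [lineMap_of_not h, lineMap_of_not]
    rintro ⟨z, hz⟩
    apply h
    have := hz.map τ.symm (isIso_symm τ hτ)
    rw [Equiv.symm_apply_apply, Equiv.symm_apply_apply] at this
    exact ⟨_, this⟩

theorem subset_span (S : Set X) : S ⊆ span L S :=
  fun _ hx => Set.mem_sInter.mpr (fun _ hT => hT.1 hx)

theorem isSubspace_span (S : Set X) : IsSubspace L (span L S) := by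
  intro l hl x hx y hy hxy hxl hyl z hz
  rw [span, Set.mem_sInter] at hx hy ⊢
  intro T hT
  exact hT.2 l hl x (hx T hT) y (hy T hT) hxy hxl hyl hz

end fs

section chart
variable {X : Type*} {L : Set (Set X)} {P : Type*}

/-- a bijection of a model `(P, op)` onto a set of points under which the lines correspond -/
structure Chart (L : Set (Set X)) (π : Set X) (op : P → P → P) (w : P → X) : Prop where
  inj : Function.Injective w
  range : Set.range w = π
  line : ∀ p q, op q p ≠ p → ({w p, w q, w (op q p)} : Set X) ∈ L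
  cover : ∀ l ∈ L, l ⊆ π → ∃ p q, op q p ≠ p ∧ l = {w p, w q, w (op q p)}

theorem chart_of_iso {π : Set X} {op : P → P → P} {M : Set (Set P)}
    (hM : ∀ s, s ∈ M ↔ ∃ p q, op q p ≠ p ∧ s = {r | r = p ∨ r = q ∨ r = op q p}) (e : π ≃ P)
    (he : IsIso (restrict L π) M e) : Chart L π op (fun p => (e.symm p : X)) := by
  refine ⟨fun p q h => e.symm.injective (Subtype.ext h), ?_, ?_, ?_⟩
  · ext x
    constructor
    · rintro ⟨p, rfl⟩
      exact (e.symm p).2
    · intro hx
      exact ⟨e ⟨x, hx⟩, by simp⟩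
  · intro p q hne
    have h1 : e '' (e.symm '' {r | r = p ∨ r = q ∨ r = op q p}) ∈ M := by
      rw [Equiv.image_symm_image]
      exact (hM _).mpr ⟨p, q, hne, rfl⟩
    obtain ⟨l₀, hl₀, hsub, heq⟩ := (he _).mpr h1
    have e2 : l₀ = {(e.symm p : X), (e.symm q : X), (e.symm (op q p) : X)} := by
      ext y
      simp only [Set.mem_insert_iff, Set.mem_singleton_iff]
      constructor
      · intro hy
        have h2 : (⟨y, hsub hy⟩ : π) ∈ e.symm '' {r | r = p ∨ r = q ∨ r = op q p} := by
          rw [heq]; exact hy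
        obtain ⟨r, hr, hr2⟩ := h2
        have h3 : y = (e.symm r : X) := by rw [hr2]
        rcases hr with rfl | rfl | rfl
        · exact Or.inl h3
        · exact Or.inr (Or.inl h3)
        · exact Or.inr (Or.inr h3)
      · intro hy
        have h2 : ∀ r, (r = p ∨ r = q ∨ r = op q p) → (e.symm r : X) ∈ l₀ := by
          intro r hr
          have h3 : e.symm r ∈ e.symm '' {r | r = p ∨ r = q ∨ r = op q p} := ⟨r, hr, rfl⟩
          rw [heq] at h3
          exact h3
        rcases hy with rfl | rfl | rfl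
        · exact h2 _ (Or.inl rfl)
        · exact h2 _ (Or.inr (Or.inl rfl))
        · exact h2 _ (Or.inr (Or.inr rfl))
    rw [← e2]
    exact hl₀
  · intro l hl hsub
    have h1 : e '' {x : π | (x : X) ∈ l} ∈ M := (he _).mp ⟨l, hl, hsub, rfl⟩
    obtain ⟨p, q, hne, hs⟩ := (hM _).mp h1
    refine ⟨p, q, hne, ?_⟩
    ext y
    simp only [Set.mem_insert_iff, Set.mem_singleton_iff]
    constructor
    · intro hy
      have h2 : e ⟨y, hsub hy⟩ ∈ e '' {x : π | (x : X) ∈ l} := ⟨_, hy, rfl⟩
      rw [hs] at h2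
      have h3 : y = (e.symm (e ⟨y, hsub hy⟩) : X) := by simp
      rcases h2 with h2 | h2 | h2 <;> rw [h2] at h3
      · exact Or.inl h3
      · exact Or.inr (Or.inl h3)
      · exact Or.inr (Or.inr h3)
    · intro hy
      have h2 : ∀ r, (r = p ∨ r = q ∨ r = op q p) → (e.symm r : X) ∈ l := by
        intro r hr
        have h3 : r ∈ e '' {x : π | (x : X) ∈ l} := by rw [hs]; exact hr
        obtain ⟨x', hx', rfl⟩ := h3
        rw [Equiv.symm_apply_apply]
        exact hx'
      rcases hy with rfl | rfl | rfl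
      · exact h2 _ (Or.inl rfl)
      · exact h2 _ (Or.inr (Or.inl rfl))
      · exact h2 _ (Or.inr (Or.inr rfl))

/-- the properties of the reflection operation of a model that are used -/
structure ModelAx (op : P → P → P) : Prop where
  invol : ∀ u p, op u (op u p) = p
  dist : ∀ u q p, op u (op q p) = op (op u q) (op u p)
  ne : ∀ u p, op u p ≠ p → op u p ≠ u ∧ u ≠ p
  col : ∀ p' q' u p, op q' p' ≠ p' → (u = p' ∨ u = q' ∨ u = op q' p') →
    (p = p' ∨ p = q' ∨ p = op q' p') → u ≠ p → op u p ≠ p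

theorem Chart.lineMap_eq {π : Set X} {op : P → P → P} {w : P → X} (C : Chart L π op w)
    (A : ModelAx op) (hP : IsPartialLinear L) (hsub : IsSubspace L π) (u p : P) :
    lineMap L (w u) (w p) = w (op u p) := by
  by_cases h : op u p = p
  · rw [h]
    apply lineMap_of_not
    rintro ⟨z, hz⟩
    have hu : w u ∈ π := C.range ▸ Set.mem_range_self u
    have hp : w p ∈ π := C.range ▸ Set.mem_range_self p
    have h1 := hsub _ hz.2.2.2 (w u) hu (w p) hp hz.2.2.1 (by simp) (by simp)
    obtain ⟨p', q', hne, hs⟩ := C.cover _ hz.2.2.2 h1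
    have h2 : ∀ r, w r ∈ ({w u, w p, z} : Set X) → (r = p' ∨ r = q' ∨ r = op q' p') := by
      intro r hr
      rw [hs] at hr
      simpa only [Set.mem_insert_iff, Set.mem_singleton_iff, C.inj.eq_iff] using hr
    exact A.col p' q' u p hne (h2 u (by simp)) (h2 p (by simp)) (fun e => hz.2.2.1 (by rw [e])) h
  · apply lineMap_of_tri hP
    obtain ⟨n1, n2⟩ := A.ne u p h
    refine ⟨fun e => n1 (C.inj e), fun e => h (C.inj e), fun e => n2 (C.inj e), ?_⟩
    have e : ({w u, w p, w (op u p)} : Set X) = {w p, w u, w (op u p)} := by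
      ext t; simp only [Set.mem_insert_iff, Set.mem_singleton_iff]; tauto
    rw [e]
    exact C.line p u h

theorem Chart.image_line {π : Set X} {op : P → P → P} {w : P → X} (C : Chart L π op w)
    (A : ModelAx op) (hP : IsPartialLinear L) (hsub : IsSubspace L π) (u : P) {l : Set X}
    (hl : l ∈ L) (hlπ : l ⊆ π) : lineMap L (w u) '' l ∈ L := by
  obtain ⟨p, q, hne, rfl⟩ := C.cover l hl hlπ
  rw [Set.image_insert_eq, Set.image_pair, C.lineMap_eq A hP hsub, C.lineMap_eq A hP hsub,
    C.lineMap_eq A hP hsub, A.dist]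
  apply C.line
  rw [← A.dist]
  intro h
  apply hne
  have := congrArg (op u) h
  rwa [A.invol, A.invol] at this

end chart

section models

set_option maxRecDepth 100000 in
theorem modelAx_dual : ModelAx opD := by
  refine ⟨?_, ?_, ?_, ?_⟩ <;> decide +kernel

theorem neg_add_eq_iff3 (u p : Fin 2 → ZMod 3) : -(u + p) = p ↔ u = p := by
  have h3 : (3 : ZMod 3) = 0 := by decide
  constructor
  · intro h
    ext k
    have hk := congrFun h k
    simp only [Pi.add_apply, Pi.neg_apply] at hk
    linear_combination (-1) * hk - (p k) * h3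
  · rintro rfl
    ext k
    simp only [Pi.add_apply, Pi.neg_apply]
    linear_combination (-(u k)) * h3

theorem modelAx_affine : ModelAx (fun p q : Fin 2 → ZMod 3 => -(p + q)) := by
  have h3 : (3 : ZMod 3) = 0 := by decide
  refine ⟨?_, ?_, ?_, ?_⟩
  · intro u p
    simp
  · intro u q p
    ext k
    simp only [Pi.add_apply, Pi.neg_apply]
    linear_combination (-(u k)) * h3
  · intro u p h
    have h1 : u ≠ p := fun e => h ((neg_add_eq_iff3 u p).mpr e)
    refine ⟨fun e => h1 ?_, h1⟩
    have e' : -(p + u) = u := by rw [add_comm]; exact e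
    exact ((neg_add_eq_iff3 p u).mp e').symm
  · intro p' q' u p _ _ _ hne h
    exact hne ((neg_add_eq_iff3 u p).mp h)

end models

section main
variable {X : Type*} {L : Set (Set X)}

theorem lineMap_image_line (hL : IsFischerSpace L) (x : X) {l : Set X} (hl : l ∈ L) :
    lineMap L x '' l ∈ L := by
  obtain ⟨hP, h3, hpl⟩ := hL
  by_cases hcol : ∃ y ∈ l, ∃ z, Tri L x y z
  · obtain ⟨y, hyl, z, hz⟩ := hcol
    by_cases hxl : x ∈ l
    · have e : l = {x, y, z} := hP _ hl _ hz.2.2.2 x y hz.2.2.1 hxl hyl (by simp) (by simp)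
      rw [e, Set.image_insert_eq, Set.image_pair, lineMap_self, lineMap_of_tri hP hz,
        lineMap_of_tri hP hz.swap23]
      exact hz.swap23.2.2.2
    · have hne : l ≠ {x, y, z} := by
        intro e
        apply hxl
        rw [e]
        simp
      have hxs : x ∈ span L (l ∪ {x, y, z}) := subset_span _ (Or.inr (by simp))
      have hls : l ⊆ span L (l ∪ {x, y, z}) := fun t ht => subset_span _ (Or.inl ht)
      rcases hpl l hl _ hz.2.2.2 hne ⟨y, hyl, by simp⟩ with ⟨e, he⟩ | ⟨e, he⟩
      · have C := chart_of_iso dual_hM e he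
        rw [← C.range] at hxs
        obtain ⟨u, hu⟩ := hxs
        rw [← hu]
        exact C.image_line modelAx_dual hP (isSubspace_span _) u hl hls
      · have C := chart_of_iso (op := fun p q : Fin 2 → ZMod 3 => -(p + q)) affine_hM e he
        rw [← C.range] at hxs
        obtain ⟨u, hu⟩ := hxs
        rw [← hu]
        exact C.image_line modelAx_affine hP (isSubspace_span _) u hl hls
  · have e : lineMap L x '' l = l := by
      have h1 : ∀ y ∈ l, lineMap L x y = id y := fun y hy =>
        lineMap_of_not (fun h => hcol ⟨y, hy, h⟩)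
      rw [Set.image_congr h1, Set.image_id]
    rw [e]
    exact hl

theorem tPerm_isIso (hL : IsFischerSpace L) (x : X) : IsIso L L (tPerm hL.1 x) := by
  intro l
  constructor
  · exact lineMap_image_line hL x
  · intro h
    have h1 := lineMap_image_line hL x h
    have e : lineMap L x '' ((tPerm hL.1 x) '' l) = l := by
      rw [Set.image_image]
      have h2 : ∀ y ∈ l, lineMap L x ((tPerm hL.1 x) y) = id y := fun y _ => lineMap_invol hL.1 x y
      rw [Set.image_congr h2, Set.image_id]
    rwa [e] at h1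

theorem tPerm_mul_self (hP : IsPartialLinear L) (x : X) : tPerm hP x * tPerm hP x = 1 := by
  ext y
  exact lineMap_invol hP x y

theorem tPerm_conj (hL : IsFischerSpace L) (x y : X) :
    tPerm hL.1 x * tPerm hL.1 y * tPerm hL.1 x = tPerm hL.1 (lineMap L x y) := by
  ext v
  show tPerm hL.1 x (lineMap L y (lineMap L x v)) = lineMap L (lineMap L x y) v
  rw [lineMap_conj hL.1 _ (tPerm_isIso hL x)]
  show lineMap L (lineMap L x y) (lineMap L x (lineMap L x v)) = _
  rw [lineMap_invol hL.1]

theorem tPerm_orderOf (hL : IsFischerSpace L) (hnd : IsNondegenerate L) (x : X) :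
    orderOf (tPerm hL.1 x) = 2 := by
  apply orderOf_eq_prime
  · rw [pow_two]
    exact tPerm_mul_self hL.1 x
  · intro h
    obtain ⟨l, hl, hxl⟩ := hnd x
    obtain ⟨y, hyl, hyx⟩ := Set.exists_ne_of_one_lt_ncard (by rw [hL.2.1 l hl]; norm_num) x
    obtain ⟨z, hz, -⟩ := exists_tri_of_line hL.2.1 hl hxl hyl hyx.symm
    have h1 : tPerm hL.1 x y = z := lineMap_of_tri hL.1 hz
    rw [h] at h1
    exact hz.2.1 h1.symm

theorem tPerm_prod (hL : IsFischerSpace L) (x y : X) :
    (tPerm hL.1 x * tPerm hL.1 y) ^ 2 = 1 ∨ (tPerm hL.1 x * tPerm hL.1 y) ^ 3 = 1 := by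
  by_cases h : ∃ z, Tri L x y z
  · right
    obtain ⟨z, hz⟩ := h
    have h1 := tPerm_conj hL x y
    have h2 := tPerm_conj hL y x
    rw [lineMap_of_tri hL.1 hz] at h1
    rw [lineMap_of_tri hL.1 hz.swap12] at h2
    calc (tPerm hL.1 x * tPerm hL.1 y) ^ 3
        = (tPerm hL.1 x * tPerm hL.1 y * tPerm hL.1 x) * (tPerm hL.1 y * tPerm hL.1 x * tPerm hL.1 y) := by
          rw [pow_succ, pow_two]; simp only [mul_assoc]
      _ = 1 := by rw [h1, h2, tPerm_mul_self]
  · left
    have h1 := tPerm_conj hL x y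
    rw [lineMap_of_not h] at h1
    calc (tPerm hL.1 x * tPerm hL.1 y) ^ 2
        = (tPerm hL.1 x * tPerm hL.1 y * tPerm hL.1 x) * tPerm hL.1 y := by
          rw [pow_two]; simp only [mul_assoc]
      _ = 1 := by rw [h1, tPerm_mul_self]

end main

end Cfsg.Agent.Lib.Helper91
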