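import Mathlib
import Cfsg.Agent.Lib.Lead.HKK.Defs
import Cfsg.Agent.Lib.Lead.HKK.GrLie
import Cfsg.Agent.Lib.Helper91.HKKGc

/-!
# Ladder HKK, rung ASSOC: the associated Lie ring of a finite group
-/

set_option autoImplicit false

namespace Cfsg.Agent.Lib.Helper91.HKK

open Cfsg.Agent.Lib.Lead.HKK DirectSum
open scoped commutatorElement

universe u

/-- the factor `Γ d / Γ (d+1)`, written additively -/
def Gr (G : Type u) [Group G] (d : ℕ) : Type u :=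
  Additive (↥(Γ G d) ⧸ (Γ G (d + 1)).subgroupOf (Γ G d))

variable {G : Type u} [Group G]

noncomputable instance Gr.instAddGroup (d : ℕ) : AddGroup (Gr G d) :=
  inferInstanceAs (AddGroup (Additive (↥(Γ G d) ⧸ (Γ G (d + 1)).subgroupOf (Γ G d))))

/-- the class of an element of `Γ d` -/
noncomputable def cl0 (d : ℕ) (g : Γ G d) : Gr G d :=
  Additive.ofMul (QuotientGroup.mk g : ↥(Γ G d) ⧸ (Γ G (d + 1)).subgroupOf (Γ G d))

theorem cl0_mul (d : ℕ) (g h : Γ G d) : cl0 d (g * h) = cl0 d g + cl0 d h := rfl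

theorem cl0_surj {d : ℕ} (x : Gr G d) : ∃ g, cl0 d g = x := by
  obtain ⟨g, hx⟩ := QuotientGroup.mk_surjective (s := (Γ G (d + 1)).subgroupOf (Γ G d))
    (Additive.toMul x)
  exact ⟨g, by unfold cl0; rw [hx]; rfl⟩

theorem cl0_eq_iff {d : ℕ} (g h : Γ G d) :
    cl0 d g = cl0 d h ↔ (g : G)⁻¹ * h ∈ Γ G (d + 1) := by
  have h1 : cl0 d g = cl0 d h ↔
      (QuotientGroup.mk g : ↥(Γ G d) ⧸ (Γ G (d + 1)).subgroupOf (Γ G d)) = QuotientGroup.mk h :=
    ⟨fun h => Additive.ofMul.injective h, fun h => congrArg Additive.ofMul h⟩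
  rw [h1, QuotientGroup.eq, Subgroup.mem_subgroupOf]
  rfl

noncomputable instance Gr.instAddCommGroup (d : ℕ) : AddCommGroup (Gr G d) :=
  { Gr.instAddGroup d with
    add_comm := by
      intro x y
      obtain ⟨g, rfl⟩ := cl0_surj x
      obtain ⟨h, rfl⟩ := cl0_surj y
      rw [← cl0_mul, ← cl0_mul, cl0_eq_iff]
      have h1 : ⁅(h : G)⁻¹, (g : G)⁻¹⁆ ∈ Γ G (d + 1) :=
        Subgroup.commutator_mem_commutator (Subgroup.inv_mem _ h.2) (Subgroup.mem_top _)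
      have e : ((g * h : Γ G d) : G)⁻¹ * ((h * g : Γ G d) : G) = ⁅(h : G)⁻¹, (g : G)⁻¹⁆ := by
        rw [commutatorElement_def]
        push_cast
        group
      rw [e]
      exact h1 }

open Classical in
/-- the class of `g` in degree `d` (zero if `g ∉ Γ d`) -/
noncomputable def cl (d : ℕ) (g : G) : Gr G d :=
  if h : g ∈ Γ G d then cl0 d ⟨g, h⟩ else 0

theorem cl_of_mem {d : ℕ} {g : G} (h : g ∈ Γ G d) : cl d g = cl0 d ⟨g, h⟩ := dif_pos h

theorem cl_mul {d : ℕ} {g h : G} (hg : g ∈ Γ G d) (hh : h ∈ Γ G d) :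
    cl d (g * h) = cl d g + cl d h := by
  rw [cl_of_mem hg, cl_of_mem hh, cl_of_mem (mul_mem hg hh)]
  rfl

theorem cl_eq_iff {d : ℕ} {g h : G} (hg : g ∈ Γ G d) (hh : h ∈ Γ G d) :
    cl d g = cl d h ↔ g⁻¹ * h ∈ Γ G (d + 1) := by
  rw [cl_of_mem hg, cl_of_mem hh, cl0_eq_iff]

theorem cl_one (d : ℕ) : cl d (1 : G) = 0 := by
  have := cl_mul (d := d) (one_mem _) (one_mem _ : (1 : G) ∈ Γ G d)
  rw [mul_one] at this
  exact left_eq_add.1 this

theorem cl_eq_zero_iff {d : ℕ} {g : G} (hg : g ∈ Γ G d) : cl d g = 0 ↔ g ∈ Γ G (d + 1) := by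
  rw [← cl_one d, eq_comm, cl_eq_iff (one_mem _) hg, inv_one, one_mul]

theorem cl_surj {d : ℕ} (x : Gr G d) : ∃ g ∈ Γ G d, cl d g = x := by
  obtain ⟨g, rfl⟩ := cl0_surj x
  exact ⟨g, g.2, cl_of_mem g.2⟩

theorem cl_inv {d : ℕ} {g : G} (hg : g ∈ Γ G d) : cl d g⁻¹ = - cl d g := by
  have := cl_mul (inv_mem hg) hg
  rw [inv_mul_cancel, cl_one] at this
  exact eq_neg_of_add_eq_zero_left this.symm

theorem cl_pow {d : ℕ} {g : G} (hg : g ∈ Γ G d) (N : ℕ) : cl d (g ^ N) = N • cl d g := by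
  induction N with
  | zero => rw [pow_zero, cl_one, zero_smul]
  | succ n ih => rw [pow_succ, cl_mul (pow_mem hg n) hg, ih, succ_nsmul]

/-- a representative -/
noncomputable def rep {d : ℕ} (x : Gr G d) : G := (cl_surj x).choose

theorem rep_mem {d : ℕ} (x : Gr G d) : rep x ∈ Γ G d := (cl_surj x).choose_spec.1

theorem cl_rep {d : ℕ} (x : Gr G d) : cl d (rep x) = x := (cl_surj x).choose_spec.2

/-- additive maps induced by maps that are multiplicative modulo the next term -/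
noncomputable def ind {d e : ℕ} (f : G → G) (h1 : ∀ g ∈ Γ G d, f g ∈ Γ G e)
    (h2 : ∀ g ∈ Γ G d, ∀ h ∈ Γ G d, (f g * f h)⁻¹ * f (g * h) ∈ Γ G (e + 1))
    (h3 : ∀ g ∈ Γ G d, ∀ h ∈ Γ G d, g⁻¹ * h ∈ Γ G (d + 1) → (f g)⁻¹ * f h ∈ Γ G (e + 1)) :
    Gr G d →+ Gr G e :=
  AddMonoidHom.mk' (fun x => cl e (f (rep x))) (by
    intro x y
    have hx := rep_mem x
    have hy := rep_mem y
    have hxy := rep_mem (x + y)
    have e1 : cl d (rep (x + y)) = cl d (rep x * rep y) := by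
      rw [cl_rep, cl_mul hx hy, cl_rep, cl_rep]
    rw [cl_eq_iff hxy (mul_mem hx hy)] at e1
    have e2 := h3 _ hxy _ (mul_mem hx hy) e1
    rw [← cl_eq_iff (h1 _ hxy) (h1 _ (mul_mem hx hy))] at e2
    have e3 := h2 _ hx _ hy
    rw [← cl_eq_iff (mul_mem (h1 _ hx) (h1 _ hy)) (h1 _ (mul_mem hx hy))] at e3
    rw [e2, ← e3, cl_mul (h1 _ hx) (h1 _ hy)])

theorem ind_cl {d e : ℕ} (f : G → G) (h1 : ∀ g ∈ Γ G d, f g ∈ Γ G e)
    (h2 : ∀ g ∈ Γ G d, ∀ h ∈ Γ G d, (f g * f h)⁻¹ * f (g * h) ∈ Γ G (e + 1))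
    (h3 : ∀ g ∈ Γ G d, ∀ h ∈ Γ G d, g⁻¹ * h ∈ Γ G (d + 1) → (f g)⁻¹ * f h ∈ Γ G (e + 1))
    {g : G} (hg : g ∈ Γ G d) : ind f h1 h2 h3 (cl d g) = cl e (f g) := by
  show cl e (f (rep (cl d g))) = cl e (f g)
  have hr := rep_mem (cl d g)
  rw [cl_eq_iff (h1 _ hr) (h1 _ hg)]
  apply h3 _ hr _ hg
  rw [← cl_eq_iff hr hg, cl_rep]

/-! ### automorphisms -/

theorem Γ_aut (β : MulAut G) (d : ℕ) {g : G} (hg : g ∈ Γ G d) : β g ∈ Γ G d := by
  have hc : (Γ G d).Characteristic := Subgroup.lowerCentralSeries_characteristic _ d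
  have : g ∈ (Γ G d).comap β.toMonoidHom := by rw [hc.fixed β]; exact hg
  exact this

/-- the map induced by an automorphism on a factor -/
noncomputable def gm (β : MulAut G) (d : ℕ) : Gr G d →+ Gr G d :=
  ind (fun g => β g) (fun _ hg => Γ_aut β d hg)
    (fun g _ h _ => by simp)
    (fun g _ h _ hk => by rw [← map_inv, ← map_mul]; exact Γ_aut β (d + 1) hk)

theorem gm_cl (β : MulAut G) {d : ℕ} {g : G} (hg : g ∈ Γ G d) :
    gm β d (cl d g) = cl d (β g) := ind_cl _ _ _ _ hg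

/-- the class in the direct sum -/
noncomputable def cls (d : ℕ) (g : G) : ⨁ d, Gr G d := of (Gr G) d (cl d g)

theorem cls_idx {d d' : ℕ} (h : d = d') (g : G) : cls d g = cls d' g := by subst h; rfl

theorem cls_mul {d : ℕ} {g h : G} (hg : g ∈ Γ G d) (hh : h ∈ Γ G d) :
    cls d (g * h) = cls d g + cls d h := by
  unfold cls
  rw [cl_mul hg hh, map_add]

theorem cls_inv {d : ℕ} {g : G} (hg : g ∈ Γ G d) : cls d g⁻¹ = - cls d g := by
  unfold cls
  rw [cl_inv hg, map_neg]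

theorem cls_eq_of {d : ℕ} {g h : G} (hg : g ∈ Γ G d) (hh : h ∈ Γ G d)
    (hk : g⁻¹ * h ∈ Γ G (d + 1)) : cls d g = cls d h := by
  unfold cls
  rw [(cl_eq_iff hg hh).2 hk]

/-- the map induced by an automorphism on the direct sum -/
noncomputable def gmL (β : MulAut G) : (⨁ d, Gr G d) →+ (⨁ d, Gr G d) := DirectSum.map (gm β)

theorem gmL_cls (β : MulAut G) {d : ℕ} {g : G} (hg : g ∈ Γ G d) :
    gmL β (cls d g) = cls d (β g) := by
  unfold gmL cls
  rw [DirectSum.map_of, gm_cl β hg]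

theorem gmL_gmL (β γ : MulAut G) (h : ∀ g, β (γ g) = g) (x : ⨁ d, Gr G d) :
    gmL β (gmL γ x) = x := by
  induction x using DirectSum.induction_on with
  | zero => simp
  | of d x =>
    obtain ⟨g, hg, rfl⟩ := cl_surj x
    show gmL β (gmL γ (cls d g)) = cls d g
    rw [gmL_cls γ hg, gmL_cls β (Γ_aut γ d hg), h]
  | add x y hx hy => rw [map_add, map_add, hx, hy]

/-! ### the bracket -/

variable [Finite G]

/-- bracket with a fixed left class -/
noncomputable def bR (i j : ℕ) (x : Gr G i) : Gr G j →+ Gr G (i + j + 1) :=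
  ind (fun h => ⁅rep x, h⁆)
    (fun h hh => gc_mem i j _ h (rep_mem x) hh)
    (fun h hh h' hh' => gc_mul_right i j _ h h' (rep_mem x) hh hh')
    (fun h _ h' _ hk => gc_congr_right i j _ h h' (rep_mem x) hk)

theorem bR_cl (i j : ℕ) {g h : G} (hg : g ∈ Γ G i) (hh : h ∈ Γ G j) :
    bR i j (cl i g) (cl j h) = cl (i + j + 1) ⁅g, h⁆ := by
  unfold bR
  rw [ind_cl _ _ _ _ hh]
  have hr := rep_mem (cl i g)
  rw [cl_eq_iff (gc_mem i j _ _ hr hh) (gc_mem i j _ _ hg hh)]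
  apply gc_congr_left i j _ _ _ _ hh
  rw [← cl_eq_iff hr hg, cl_rep]

/-- the bracket on the factors -/
noncomputable def bb (i j : ℕ) : Gr G i →+ Gr G j →+ Gr G (i + j + 1) :=
  AddMonoidHom.mk' (fun x => bR i j x) (by
    intro x x'
    ext y
    obtain ⟨g, hg, rfl⟩ := cl_surj x
    obtain ⟨g', hg', rfl⟩ := cl_surj x'
    obtain ⟨h, hh, rfl⟩ := cl_surj y
    rw [← cl_mul hg hg', AddMonoidHom.add_apply, bR_cl i j (mul_mem hg hg') hh, bR_cl i j hg hh,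
      bR_cl i j hg' hh, ← cl_mul (gc_mem i j _ _ hg hh) (gc_mem i j _ _ hg' hh), eq_comm,
      cl_eq_iff (mul_mem (gc_mem i j _ _ hg hh) (gc_mem i j _ _ hg' hh))
        (gc_mem i j _ _ (mul_mem hg hg') hh)]
    exact gc_mul_left i j g g' h hg hg' hh)

theorem bb_cl (i j : ℕ) {g h : G} (hg : g ∈ Γ G i) (hh : h ∈ Γ G j) :
    bb i j (cl i g) (cl j h) = cl (i + j + 1) ⁅g, h⁆ := bR_cl i j hg hh

theorem bb_alt (i : ℕ) (x : Gr G i) : bb i i x x = 0 := by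
  obtain ⟨g, hg, rfl⟩ := cl_surj x
  rw [bb_cl i i hg hg, commutatorElement_self, cl_one]

theorem bb_skew (i j : ℕ) (x : Gr G i) (y : Gr G j) :
    of (Gr G) (i + j + 1) (bb i j x y) = - of (Gr G) (j + i + 1) (bb j i y x) := by
  obtain ⟨g, hg, rfl⟩ := cl_surj x
  obtain ⟨h, hh, rfl⟩ := cl_surj y
  rw [bb_cl i j hg hh, bb_cl j i hh hg]
  show cls (i + j + 1) ⁅g, h⁆ = - cls (j + i + 1) ⁅h, g⁆
  rw [← cls_inv (gc_mem j i _ _ hh hg), commutatorElement_inv]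
  exact cls_idx (by omega) _

theorem bb_jac (i j k : ℕ) (x : Gr G i) (y : Gr G j) (z : Gr G k) :
    of (Gr G) (i + (j + k + 1) + 1) (bb i (j + k + 1) x (bb j k y z))
      = of (Gr G) (i + j + 1 + k + 1) (bb (i + j + 1) k (bb i j x y) z)
        + of (Gr G) (j + (i + k + 1) + 1) (bb j (i + k + 1) y (bb i k x z)) := by
  obtain ⟨g, hg, rfl⟩ := cl_surj x
  obtain ⟨h, hh, rfl⟩ := cl_surj y
  obtain ⟨l, hl, rfl⟩ := cl_surj z
  rw [bb_cl j k hh hl, bb_cl i j hg hh, bb_cl i k hg hl,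
    bb_cl i (j + k + 1) hg (gc_mem j k _ _ hh hl), bb_cl (i + j + 1) k (gc_mem i j _ _ hg hh) hl,
    bb_cl j (i + k + 1) hh (gc_mem i k _ _ hg hl)]
  show cls (i + (j + k + 1) + 1) ⁅g, ⁅h, l⁆⁆
    = cls (i + j + 1 + k + 1) ⁅⁅g, h⁆, l⁆ + cls (j + (i + k + 1) + 1) ⁅h, ⁅g, l⁆⁆
  rw [cls_idx (show i + (j + k + 1) + 1 = i + j + k + 2 by omega),
    cls_idx (show i + j + 1 + k + 1 = i + j + k + 2 by omega),
    cls_idx (show j + (i + k + 1) + 1 = i + j + k + 2 by omega)]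
  have h1 : ⁅g, ⁅h, l⁆⁆ ∈ Γ G (i + j + k + 2) :=
    Γ_anti (by omega) (gc_mem i (j + k + 1) _ _ hg (gc_mem j k _ _ hh hl))
  have h2 : ⁅⁅g, h⁆, l⁆ ∈ Γ G (i + j + k + 2) :=
    Γ_anti (by omega) (gc_mem (i + j + 1) k _ _ (gc_mem i j _ _ hg hh) hl)
  have h3 : ⁅h, ⁅g, l⁆⁆ ∈ Γ G (i + j + k + 2) :=
    Γ_anti (by omega) (gc_mem j (i + k + 1) _ _ hh (gc_mem i k _ _ hg hl))
  rw [← cls_mul h2 h3]
  exact (cls_eq_of (mul_mem h2 h3) h1 (gc_jacobi i j k g h l hg hh hl)).symm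

theorem gmL_grBr (β : MulAut G) (x y : ⨁ d, Gr G d) :
    gmL β (grBr bb x y) = grBr bb (gmL β x) (gmL β y) := by
  induction x using DirectSum.induction_on with
  | zero => simp
  | add x x' hx hx' => simp only [map_add, AddMonoidHom.add_apply, hx, hx']
  | of i x =>
    induction y using DirectSum.induction_on with
    | zero => simp
    | add y y' hy hy' => simp only [map_add, hy, hy']
    | of j y =>
      obtain ⟨g, hg, rfl⟩ := cl_surj x
      obtain ⟨h, hh, rfl⟩ := cl_surj y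
      rw [grBr_of_of, bb_cl i j hg hh]
      show gmL β (cls (i + j + 1) ⁅g, h⁆) = grBr bb (gmL β (cls i g)) (gmL β (cls j h))
      rw [gmL_cls β (gc_mem i j _ _ hg hh), gmL_cls β hg, gmL_cls β hh]
      show _ = grBr bb (of (Gr G) i (cl i (β g))) (of (Gr G) j (cl j (β h)))
      rw [grBr_of_of, bb_cl i j (Γ_aut β i hg) (Γ_aut β j hh), map_commutatorElement]
      rfl

theorem exists_assoc (G : Type u) [Group G] [Finite G] (α : MulAut G) :
    ∃ (L : Type u) (_ : LieRing L) (φ : L ≃+ L) (cls : ℕ → G → L),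
      (∀ x y : L, φ ⁅x, y⁆ = ⁅φ x, φ y⁆) ∧
      (∀ d g h, g ∈ Γ G d → h ∈ Γ G d → cls d (g * h) = cls d g + cls d h) ∧
      (∀ d g, g ∈ Γ G d → (cls d g = 0 ↔ g ∈ Γ G (d + 1))) ∧
      (∀ a b g h, g ∈ Γ G a → h ∈ Γ G b →
        ⁅cls a g, cls b h⁆ = cls (a + b + 1) (g * h * g⁻¹ * h⁻¹)) ∧
      (∀ d g, g ∈ Γ G d → φ (cls d g) = cls d (α g)) ∧
      (∀ x : L, x ∈ AddSubgroup.closure {y | ∃ d g, g ∈ Γ G d ∧ y = cls d g}) ∧
      (∀ N : ℕ, (∀ d g, g ∈ Γ G d → g⁻¹ * α g ∈ Γ G (d + 1) → g ^ N ∈ Γ G (d + 1)) →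
        ∀ x : L, φ x = x → N • x = 0) := by
  let φ : (⨁ d, Gr G d) ≃+ (⨁ d, Gr G d) :=
    { toFun := gmL α
      invFun := gmL α⁻¹
      left_inv := gmL_gmL α⁻¹ α (by simp)
      right_inv := gmL_gmL α α⁻¹ (by simp)
      map_add' := map_add _ }
  refine ⟨⨁ d, Gr G d, grLieRing bb bb_alt bb_skew bb_jac, φ, cls, ?_, ?_, ?_, ?_, ?_, ?_, ?_⟩
  · intro x y
    exact gmL_grBr α x y
  · intro d g h hg hh
    exact cls_mul hg hh
  · intro d g hg
    rw [← cl_eq_zero_iff hg]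
    unfold cls
    constructor
    · intro h
      apply DirectSum.of_injective (β := Gr G) d
      rw [h, map_zero]
    · intro h
      rw [h, map_zero]
  · intro a b g h hg hh
    show grBr bb (of (Gr G) a (cl a g)) (of (Gr G) b (cl b h)) = _
    rw [grBr_of_of, bb_cl a b hg hh, commutatorElement_def]
    rfl
  · intro d g hg
    exact gmL_cls α hg
  · intro x
    induction x using DirectSum.induction_on with
    | zero => exact zero_mem _
    | of d x =>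
      obtain ⟨g, hg, rfl⟩ := cl_surj x
      exact AddSubgroup.subset_closure ⟨d, g, hg, rfl⟩
    | add x y hx hy => exact add_mem hx hy
  · intro N hN x hx
    apply DirectSum.ext
    intro d
    have h1 : (gmL α x) d = x d := by
      have : gmL α x = x := hx
      rw [this]
    unfold gmL at h1
    rw [DirectSum.map_apply] at h1
    obtain ⟨g, hg, hgx⟩ := cl_surj (x d)
    rw [← hgx, gm_cl α hg, eq_comm, cl_eq_iff hg (Γ_aut α d hg)] at h1
    have h2 := hN d g hg h1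
    rw [← cl_eq_zero_iff (pow_mem hg N), cl_pow hg, hgx] at h2
    have h3 : (N • x) d = N • x d := DFinsupp.nsmul_apply N x d
    rw [h3, h2]
    rfl

end Cfsg.Agent.Lib.Helper91.HKK
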