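import Cfsg.Agent.Lib.Helper11.Co0Card
import Cfsg.Agent.Lib.Helper11.LeechTrans8
import Cfsg.Agent.Lib.Helper9.CoCenter
import Cfsg.Agent.S0365

/-!
# The stabiliser of a cross in `Co0` and `Co1`: structure `2^12 : M24`, resp. `2^11 : M24`
-/

set_option autoImplicit false

namespace Cfsg.Agent.Lib.Helper91

open Cfsg Cfsg.Agent.Lib.Helper9 Cfsg.Agent.Lib.Helper11 Cfsg.Agent.S5546
open scoped Pointwise

/-- `g` acts as the signed permutation `(σ, c)` -/
def IsMono (g : ↥Co0) (σ : Equiv.Perm GolayPt) (c : Finset GolayPt) : Prop :=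
  ∀ v : ↥leechLattice, ((g • v : ↥leechLattice) : GolayPt → ℤ) = signedPerm σ c v

theorem IsMono.unique {g : ↥Co0} {σ σ' : Equiv.Perm GolayPt} {c c' : Finset GolayPt}
    (h : IsMono g σ c) (h' : IsMono g σ' c') : σ = σ' ∧ c = c' := by
  have h1 : ∀ i, signedPerm σ c (Pi.single i 8) = signedPerm σ' c' (Pi.single i 8) := by
    intro i
    rw [← E8_eq_single, ← h, ← h']
  have h3 : ∀ i, σ i = σ' i := by
    intro i
    have h2 := congrFun (h1 i) (σ i)
    rw [signedPerm_single, signedPerm_single, Pi.single_eq_same, Pi.single_apply] at h2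
    by_contra hne
    rw [if_neg hne] at h2
    split_ifs at h2 <;> omega
  have hσσ : σ = σ' := Equiv.ext h3
  subst hσσ
  refine ⟨rfl, ?_⟩
  ext k
  have h2 := congrFun (h1 (σ.symm k)) k
  rw [signedPerm_single, signedPerm_single, Equiv.apply_symm_apply, Pi.single_eq_same,
    Pi.single_eq_same] at h2
  by_cases a : k ∈ c <;> by_cases b : k ∈ c'
  · exact ⟨fun _ => b, fun _ => a⟩
  · rw [if_pos a, if_neg b] at h2; omega
  · rw [if_neg a, if_pos b] at h2; omega
  · exact ⟨fun h => absurd h a, fun h => absurd h b⟩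

theorem signedPerm_comp (σ τ : Equiv.Perm GolayPt) (c d : Finset GolayPt) (x : GolayPt → ℤ) :
    signedPerm σ c (signedPerm τ d x) =
      signedPerm (σ * τ) (symmDiff c (d.map σ.toEmbedding)) x := by
  funext i
  have e : i ∈ d.map σ.toEmbedding ↔ σ.symm i ∈ d := by
    rw [Finset.mem_map_equiv]
  unfold signedPerm
  have e2 : (σ * τ).symm i = τ.symm (σ.symm i) := rfl
  rw [e2]
  by_cases h1 : i ∈ c <;> by_cases h2 : σ.symm i ∈ d <;>
    simp [Finset.mem_symmDiff, h1, h2, e]

theorem IsMono.mul {g h : ↥Co0} {σ τ : Equiv.Perm GolayPt} {c d : Finset GolayPt}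
    (hg : IsMono g σ c) (hh : IsMono h τ d) :
    IsMono (g * h) (σ * τ) (symmDiff c (d.map σ.toEmbedding)) := by
  intro v
  rw [mul_smul, hg, hh, signedPerm_comp]

theorem isMono_monoEl (σ : Equiv.Perm GolayPt) (hσ : σ ∈ M24) (c : Finset GolayPt)
    (hc : c ∈ supports (golayCode : Set (GolayPt → ZMod 2))) : IsMono (monoEl σ hσ c hc) σ c :=
  fun v => monoEl_apply σ hσ c hc v

theorem IsMono.eq {g h : ↥Co0} {σ : Equiv.Perm GolayPt} {c : Finset GolayPt}
    (hg : IsMono g σ c) (hh : IsMono h σ c) : g = h :=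
  co0_ext (fun v => Subtype.ext (by rw [hg, hh]))

theorem exists_isMono (g : ↥crossStab) : ∃ σ : ↥M24, ∃ c ∈ supports (golayCode : Set (GolayPt → ZMod 2)),
    IsMono g.1 σ.1 c := by
  obtain ⟨σ, hσ, c, hc, h⟩ := fixCross_monomial g.1 g.2
  exact ⟨⟨σ, hσ⟩, c, hc, h⟩

/-- the permutation part of an element of the stabiliser of the standard cross -/
noncomputable def permHom : ↥crossStab →* ↥M24 :=
  MonoidHom.mk' (fun g => (exists_isMono g).choose) (by
    intro g h
    obtain ⟨c, -, hc⟩ := (exists_isMono g).choose_spec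
    obtain ⟨d, -, hd⟩ := (exists_isMono h).choose_spec
    obtain ⟨k, -, hk⟩ := (exists_isMono (g * h)).choose_spec
    apply Subtype.ext
    exact (IsMono.unique hk (hc.mul hd)).1)

theorem permHom_spec (g : ↥crossStab) : ∃ c ∈ supports (golayCode : Set (GolayPt → ZMod 2)),
    IsMono g.1 (permHom g).1 c := (exists_isMono g).choose_spec

theorem permHom_eq {g : ↥crossStab} {σ : Equiv.Perm GolayPt} {c : Finset GolayPt}
    (h : IsMono g.1 σ c) : (permHom g).1 = σ := by
  obtain ⟨d, -, hd⟩ := permHom_spec g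
  exact (IsMono.unique hd h).1

/-- the pure permutations -/
noncomputable def permEl (σ : ↥M24) : ↥crossStab :=
  ⟨monoEl σ.1 σ.2 ∅ empty_mem_supports', monoEl_fixCross _ _ _ _⟩

theorem isMono_permEl (σ : ↥M24) : IsMono (permEl σ).1 σ.1 ∅ :=
  isMono_monoEl σ.1 σ.2 ∅ empty_mem_supports'

theorem permHom_permEl (σ : ↥M24) : permHom (permEl σ) = σ :=
  Subtype.ext (permHom_eq (isMono_permEl σ))

theorem permHom_surjective : Function.Surjective permHom := fun σ => ⟨permEl σ, permHom_permEl σ⟩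

theorem permEl_mul (σ τ : ↥M24) : permEl (σ * τ) = permEl σ * permEl τ := by
  apply Subtype.ext
  have h := (isMono_permEl σ).mul (isMono_permEl τ)
  rw [Finset.map_empty, symmDiff_self] at h
  exact IsMono.eq (isMono_permEl (σ * τ)) h

/-- the embedding of `M24` as pure permutations -/
noncomputable def permElHom : ↥M24 →* ↥crossStab := MonoidHom.mk' permEl permEl_mul

theorem card_ker_permHom : Nat.card permHom.ker = 4096 := by
  have h1 := Subgroup.card_eq_card_quotient_mul_card_subgroup permHom.ker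
  rw [Nat.card_congr (QuotientGroup.quotientKerEquivOfSurjective permHom permHom_surjective).toEquiv,
    card_crossStab, card_M24] at h1
  omega

theorem ker_sq {g : ↥crossStab} (hg : g ∈ permHom.ker) : g * g = 1 := by
  obtain ⟨c, -, hc⟩ := permHom_spec g
  rw [MonoidHom.mem_ker.mp hg] at hc
  apply Subtype.ext
  have h := hc.mul hc
  apply co0_ext
  intro v
  apply Subtype.ext
  show (((g.1 * g.1 : ↥Co0) • v : ↥leechLattice) : GolayPt → ℤ) = ((1 : ↥Co0) • v : ↥leechLattice)
  rw [h, one_smul]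
  funext i
  unfold signedPerm
  have e1 : ((1 : ↥M24) : Equiv.Perm GolayPt) = 1 := rfl
  have e2 : ((1 : Equiv.Perm GolayPt) * 1).symm i = i := rfl
  have e3 : i ∉ symmDiff c (Finset.map (Equiv.toEmbedding (1 : Equiv.Perm GolayPt)) c) := by
    have : Finset.map (Equiv.toEmbedding (1 : Equiv.Perm GolayPt)) c = c := by
      ext k
      rw [Finset.mem_map_equiv]
      rfl
    rw [this, symmDiff_self]
    simp
  rw [e1, e2, if_neg e3]

theorem negEl_mem_crossStab : negEl ∈ crossStab := monoEl_fixCross _ _ _ _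

theorem negEl_mem_ker : (⟨negEl, negEl_mem_crossStab⟩ : ↥crossStab) ∈ permHom.ker := by
  rw [MonoidHom.mem_ker]
  apply Subtype.ext
  exact permHom_eq (g := ⟨negEl, negEl_mem_crossStab⟩)
    (isMono_monoEl 1 M24.one_mem Finset.univ univ_mem_supports)

theorem le_ker_of_normal_two (B : Subgroup ↥crossStab) [B.Normal] (hB : IsPGroup 2 B) :
    B ≤ permHom.ker := by
  have hn : (B.map permHom).Normal := Subgroup.Normal.map inferInstance _ permHom_surjective
  have hs : IsSimpleGroup ↥M24 := Cfsg.Agent.S0365.result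
  rcases hn.eq_bot_or_eq_top with h | h
  · exact (Subgroup.map_eq_bot_iff B).mp h
  · exfalso
    have h1 : IsPGroup 2 (B.map permHom) := hB.map _
    rw [h] at h1
    have h2 : IsPGroup 2 ↥M24 := h1.of_equiv Subgroup.topEquiv
    have : Finite ↥M24 := Nat.finite_of_card_ne_zero (by rw [card_M24]; norm_num)
    obtain ⟨k, hk⟩ := IsPGroup.iff_card.mp h2
    rw [card_M24] at hk
    have h3 : 3 ∣ 2 ^ k := by rw [← hk]; norm_num
    have h4 := Nat.Prime.dvd_of_dvd_pow Nat.prime_three h3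
    omega

/-- (A) an element of `Co0` fixing the class of `x0` modulo twice the lattice fixes the standard
cross -/
theorem fixCross_of_congr (g : ↥Co0)
    (h : ∃ t ∈ leechLattice, ((g • x0 : ↥leechLattice) : GolayPt → ℤ) - (x0 : GolayPt → ℤ) = 2 • t) :
    FixCross g := by
  obtain ⟨t, ht, hgt⟩ := h
  intro v hv
  rw [stdCross_eq_cross] at hv ⊢
  obtain ⟨-, hn, z, hz, hxz⟩ := hv
  refine ⟨(g • v).2, by rw [← hn]; exact g.2.2 v, (g • (⟨z, hz⟩ : ↥leechLattice)).1 - t,
    leechLattice.sub_mem (g • (⟨z, hz⟩ : ↥leechLattice)).2 ht, ?_⟩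
  have h1 : x0 = v + ((⟨z, hz⟩ : ↥leechLattice) + ⟨z, hz⟩) := by
    apply Subtype.ext
    show x0.1 = v.1 + (z + z)
    have : x0.1 = v.1 + (x0.1 - v.1) := by abel
    rw [this, hxz, two_smul]
  have h2 : g • x0 = g • v + (g • (⟨z, hz⟩ : ↥leechLattice) + g • (⟨z, hz⟩ : ↥leechLattice)) := by
    conv_lhs => rw [h1]
    rw [smul_add', smul_add']
  have h3 : (g • x0).1 = (g • v).1 + ((g • (⟨z, hz⟩ : ↥leechLattice)).1 +
      (g • (⟨z, hz⟩ : ↥leechLattice)).1) := congrArg Subtype.val h2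
  have h4 : x0.1 = (g • x0).1 - 2 • t := by rw [← hgt]; abel
  rw [h4, h3, smul_sub, two_smul, two_smul]
  abel

/-- the converse of `fixCross_of_congr` -/
theorem congr_of_fixCross {g : ↥Co0} (hg : FixCross g) :
    ∃ t : ↥leechLattice, g • x0 = x0 + (t + t) := by
  have h := hg x0 (E8_mem_stdCross none)
  rw [stdCross_eq_cross] at h
  obtain ⟨-, -, z, hz, hxz⟩ := h
  refine ⟨-⟨z, hz⟩, ?_⟩
  apply Subtype.ext
  show (g • x0).1 = x0.1 + (-z + -z)
  have : (g • x0).1 = x0.1 - (x0.1 - (g • x0).1) := by abel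
  rw [this, hxz, two_smul]
  abel

/-- (B) a 2-subgroup of the stabiliser of the standard cross normalised by it consists of sign
changes -/
theorem sign_of_normal_two (P : Subgroup ↥Co0) (hP : P ≤ crossStab) (hp : IsPGroup 2 P)
    (hn : ∀ n ∈ crossStab, ∀ p ∈ P, n * p * n⁻¹ ∈ P) :
    ∀ p ∈ P, ∃ c, ∃ hc : c ∈ supports (golayCode : Set (GolayPt → ZMod 2)),
      p = monoEl 1 M24.one_mem c hc := by
  intro p hpP
  have hnorm : (P.subgroupOf crossStab).Normal := by
    constructor
    intro m hm n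
    exact hn n n.2 m hm
  have h1 := le_ker_of_normal_two (P.subgroupOf crossStab) hp.comap_subtype
  have h2 : (⟨p, hP hpP⟩ : ↥crossStab) ∈ permHom.ker := h1 (show p ∈ P from hpP)
  obtain ⟨c, hc, hm⟩ := permHom_spec ⟨p, hP hpP⟩
  rw [MonoidHom.mem_ker.mp h2] at hm
  exact ⟨c, hc, IsMono.eq hm (isMono_monoEl 1 M24.one_mem c hc)⟩

end Cfsg.Agent.Lib.Helper91
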