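import Cfsg.Agent.Lib.Helper91.MonCo

/-!
# The shape `2^11 : M24` of a subgroup, and the image of the cross stabiliser in `Co1`
-/

set_option autoImplicit false

namespace Cfsg.Agent.Lib.Helper91

open Cfsg Cfsg.Agent.Lib.Helper9 Cfsg.Agent.Lib.Helper11

/-- order of the image of a subgroup -/
theorem card_inf_ker_mul_card_map {G H : Type*} [Group G] [Group H] (f : G →* H) (A : Subgroup G) :
    Nat.card (A ⊓ f.ker : Subgroup G) * Nat.card (A.map f) = Nat.card A := by
  have := Subgroup.relIndex_mul_relIndex (⊥ : Subgroup G) (A ⊓ f.ker) A bot_le inf_le_left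
  rwa [Subgroup.relIndex_bot_left, Subgroup.relIndex_bot_left, Subgroup.inf_relIndex_left,
    Subgroup.relIndex_ker] at this

/-- `N` is a split extension of an elementary abelian group `S` of order `2^11` by `M24`, and `S`
contains every 2-subgroup of `N` normalised by `N` -/
def Split24 {H : Type*} [Group H] (N : Subgroup H) : Prop :=
  ∃ S K : Subgroup H, S ≤ N ∧ K ≤ N ∧ Nat.card S = 2 ^ 11 ∧ (∀ x ∈ S, x * x = 1) ∧ S ⊓ K = ⊥ ∧
    S ⊔ K = N ∧ Nonempty (K ≃* M24) ∧
    ∀ B : Subgroup H, B ≤ N → IsPGroup 2 B → (∀ n ∈ N, ∀ b ∈ B, n * b * n⁻¹ ∈ B) → B ≤ S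

theorem Split24.map {H H' : Type*} [Group H] [Group H'] {N : Subgroup H} (h : Split24 N)
    (f : H ≃* H') : Split24 (N.map f.toMonoidHom) := by
  obtain ⟨S, K, hS, hK, hc, hsq, hinf, hsup, ⟨eK⟩, hB⟩ := h
  have hinj : Function.Injective f.toMonoidHom := f.injective
  refine ⟨S.map f.toMonoidHom, K.map f.toMonoidHom, Subgroup.map_mono hS, Subgroup.map_mono hK,
    ?_, ?_, ?_, ?_, ?_, ?_⟩
  · rw [Subgroup.card_map_of_injective hinj, hc]
  · rintro _ ⟨x, hx, rfl⟩
    rw [← map_mul, hsq x hx, map_one]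
  · rw [← Subgroup.map_inf _ _ _ hinj, hinf, Subgroup.map_bot]
  · rw [← Subgroup.map_sup, hsup]
  · exact ⟨(K.equivMapOfInjective f.toMonoidHom hinj).symm.trans eK⟩
  · intro B hBN hBp hBn
    have h1 : B.comap f.toMonoidHom ≤ S := by
      apply hB
      · intro x hx
        obtain ⟨y, hy, hyx⟩ := hBN (Subgroup.mem_comap.1 hx)
        rwa [← hinj hyx]
      · exact hBp.comap_of_injective _ hinj
      · intro n hn b hb
        rw [Subgroup.mem_comap] at hb ⊢
        rw [map_mul, map_mul, map_inv]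
        exact hBn _ ⟨n, hn, rfl⟩ _ hb
    have h2 := Subgroup.map_mono (f := f.toMonoidHom) h1
    rwa [Subgroup.map_comap_eq_self_of_surjective (f := f.toMonoidHom) f.surjective] at h2

/-- the map from the cross stabiliser to `Co1` -/
noncomputable def crossToCo1 : ↥crossStab →* Spor.Co1 :=
  (QuotientGroup.mk' (Subgroup.center ↥Co0)).comp crossStab.subtype

theorem crossToCo1_range :
    crossToCo1.range = crossStab.map (QuotientGroup.mk' (Subgroup.center ↥Co0)) := by
  unfold crossToCo1
  rw [MonoidHom.range_comp, Subgroup.range_subtype]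

theorem crossToCo1_ker_le : crossToCo1.ker ≤ permHom.ker := by
  rintro ⟨a, ha⟩ h
  have h1 : a ∈ Subgroup.center ↥Co0 := (QuotientGroup.eq_one_iff a).1 h
  rcases center_cases a h1 with h2 | h2
  · have : (⟨a, ha⟩ : ↥crossStab) = 1 := Subtype.ext h2
    rw [this]; exact Subgroup.one_mem _
  · have : (⟨a, ha⟩ : ↥crossStab) = ⟨negEl, negEl_mem_crossStab⟩ := Subtype.ext h2
    rw [this]; exact negEl_mem_ker

theorem card_crossToCo1_ker : Nat.card crossToCo1.ker = 2 := by
  have h1 : crossToCo1.ker = (Subgroup.center ↥Co0).subgroupOf crossStab := by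
    ext ⟨a, ha⟩
    exact QuotientGroup.eq_one_iff a
  have h2 : Subgroup.center ↥Co0 ≤ crossStab := by
    intro a ha
    rcases center_cases a ha with h2 | h2
    · rw [h2]; exact Subgroup.one_mem _
    · rw [h2]; exact negEl_mem_crossStab
  rw [h1, Nat.card_congr (Subgroup.subgroupOfEquivOfLe h2).toEquiv, card_center_Co0]

theorem split24_crossStab :
    Split24 (crossStab.map (QuotientGroup.mk' (Subgroup.center ↥Co0))) := by
  rw [← crossToCo1_range]
  have hinjK : Function.Injective (crossToCo1.comp permElHom) := by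
    rw [injective_iff_map_eq_one]
    intro σ hσ
    have h1 : permEl σ ∈ permHom.ker := crossToCo1_ker_le hσ
    rw [MonoidHom.mem_ker, permHom_permEl] at h1
    exact h1
  refine ⟨permHom.ker.map crossToCo1, (crossToCo1.comp permElHom).range, ?_, ?_, ?_, ?_, ?_, ?_,
    ?_, ?_⟩
  · rintro _ ⟨x, -, rfl⟩
    exact Set.mem_range_self x
  · rintro _ ⟨x, rfl⟩
    exact Set.mem_range_self (permElHom x)
  · have h := card_inf_ker_mul_card_map crossToCo1 permHom.ker
    rw [inf_eq_right.2 crossToCo1_ker_le, card_crossToCo1_ker, card_ker_permHom] at h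
    exact Nat.eq_of_mul_eq_mul_left (by norm_num : 0 < 2) (h.trans (by norm_num))
  · rintro _ ⟨x, hx, rfl⟩
    rw [← map_mul, ker_sq hx, map_one]
  · rw [eq_bot_iff]
    rintro _ ⟨⟨a, ha, rfl⟩, ⟨σ, hσ⟩⟩
    have h1 : (permEl σ)⁻¹ * a ∈ crossToCo1.ker := by
      rw [MonoidHom.mem_ker, map_mul, map_inv, inv_mul_eq_one]
      exact hσ
    have h2 := crossToCo1_ker_le h1
    have h3 : permEl σ ∈ permHom.ker := by
      have := permHom.ker.mul_mem ha (permHom.ker.inv_mem h2)
      simpa using this
    rw [MonoidHom.mem_ker, permHom_permEl] at h3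
    rw [Subgroup.mem_bot, ← hσ, h3, map_one]
  · apply le_antisymm
    · rw [sup_le_iff]
      constructor
      · rintro _ ⟨x, -, rfl⟩
        exact Set.mem_range_self x
      · rintro _ ⟨x, rfl⟩
        exact Set.mem_range_self (permElHom x)
    · rintro _ ⟨g, rfl⟩
      have h1 : g = (g * (permEl (permHom g))⁻¹) * permEl (permHom g) := by group
      rw [h1, map_mul]
      apply Subgroup.mul_mem_sup
      · refine ⟨_, ?_, rfl⟩
        rw [SetLike.mem_coe, MonoidHom.mem_ker, map_mul, map_inv, permHom_permEl, mul_inv_cancel]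
      · exact Set.mem_range_self (f := crossToCo1.comp permElHom) (permHom g)
  · exact ⟨(MonoidHom.ofInjective hinjK).symm⟩
  · intro B hBN hBp hBn
    have hnorm : (B.comap crossToCo1).Normal := by
      constructor
      intro b hb n
      rw [Subgroup.mem_comap] at hb ⊢
      rw [map_mul, map_mul, map_inv]
      exact hBn _ (Set.mem_range_self n) _ hb
    have hker : IsPGroup 2 crossToCo1.ker := IsPGroup.of_card (n := 1) (by rw [card_crossToCo1_ker]; rfl)
    have h1 := le_ker_of_normal_two (B.comap crossToCo1) (hBp.comap_of_ker_isPGroup _ hker)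
    have h2 := Subgroup.map_mono (f := crossToCo1) h1
    rwa [Subgroup.map_comap_eq_self hBN] at h2

end Cfsg.Agent.Lib.Helper91
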