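import Cfsg.Agent.Lib.Helper91.MonCo3
import Cfsg.Agent.Lib.Helper33.MonFacts
import Cfsg.Agent.Lib.Helper92.ES2Rank

/-!
# Groups of Monster type: `Q ∩ Q^g` and the image of `C(z) ∩ C(s)` in `C(z)/Q`
-/

set_option autoImplicit false

namespace Cfsg.Agent.Lib.Helper91

open Cfsg Cfsg.Agent.Lib.Helper11 Cfsg.Agent.Lib.Helper33 Cfsg.Agent.Lib.Helper92

/-- abelian subgroups of an extraspecial group of order `2^25` have order at most `2^13` -/
theorem card_abelian_le13 {E : Type*} [Group E] [Finite E] (hE : IsExtraspecial 2 E)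
    (hc : Nat.card E = 2 ^ 25) (A : Subgroup E) (hA : ∀ a ∈ A, ∀ b ∈ A, a * b = b * a) :
    Nat.card A ≤ 2 ^ 13 := by
  obtain ⟨⟨_, _, hcomm⟩, hcard⟩ := hE
  obtain ⟨z, hz⟩ := ES2.exists_of (le_of_eq hcomm) hcard
  exact ES2.card_abelian_le _ E z hz 12 rfl hc A hA

/-- the data needed for `split24_final` in a group of Monster type -/
theorem monster_data {G : Type*} [Group G] [Finite G] (z : G)
    (Q : Subgroup (Subgroup.centralizer ({z} : Set G))) [Q.Normal] (hM : IsOfMonsterType z Q)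
    (s : G) (hsQ : ∃ hsc : s ∈ Subgroup.centralizer ({z} : Set G),
      (⟨s, hsc⟩ : Subgroup.centralizer ({z} : Set G)) ∈ Q) (hs1 : s ≠ z) (g : G)
    (hg : g * z * g⁻¹ = s) (X A : Subgroup (Subgroup.centralizer ({z} : Set G)))
    (hX : X = (Subgroup.centralizer ({z} : Set G) ⊓ Subgroup.centralizer ({s} : Set G)).subgroupOf
      (Subgroup.centralizer ({z} : Set G)))
    (hA : A = ((Q.map (Subgroup.centralizer ({z} : Set G)).subtype).map
      (MulAut.conj g).toMonoidHom ⊓ Subgroup.centralizer ({z} : Set G)).subgroupOf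
      (Subgroup.centralizer ({z} : Set G))) :
    A ≤ X ∧ (∀ x ∈ X, ∀ a ∈ A, x * a * x⁻¹ ∈ A) ∧ Nat.card A = 2 ^ 24 ∧
      Nat.card (A ⊓ Q : Subgroup (Subgroup.centralizer ({z} : Set G))) ≤ 2 ^ 13 ∧
      Split24 (X.map (QuotientGroup.mk' Q)) ∧
      Nat.card ↥((Q.map (Subgroup.centralizer ({z} : Set G)).subtype) ⊓
        (Q.map (Subgroup.centralizer ({z} : Set G)).subtype).map (MulAut.conj g).toMonoidHom) =
        Nat.card (A ⊓ Q : Subgroup (Subgroup.centralizer ({z} : Set G))) := by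
  have hF := coFacts
  obtain ⟨hS, e, ψ, hψ⟩ := hM
  have hP := monPack_of hF.hCo1 hS hψ
  obtain ⟨hsc, hsQ⟩ := hsQ
  have hsG : g * z * g⁻¹ ∈ QG Q := by rw [hg]; exact ⟨⟨s, hsc⟩, hsQ, rfl⟩
  have hz := hP.z_mem_conj hF.hCo1 (g := g) hsG (by rw [hg]; exact hs1)
  have hXs : XS ((QG Q).map (MulAut.conj g).toMonoidHom) s := by
    have := hP.xsG.map (MulAut.conj g)
    rwa [MulAut.conj_apply, hg] at this
  have hNs : HNorm ((QG Q).map (MulAut.conj g).toMonoidHom) s := by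
    have := (hnormG (Q := Q)).map (MulAut.conj g)
    rwa [MulAut.conj_apply, hg] at this
  have hcs : Nat.card ((QG Q).map (MulAut.conj g).toMonoidHom) = 2 ^ 25 := by
    rw [Subgroup.card_map_of_injective (MulAut.conj g).injective, hP.cardG]
  have hcA := card_inf_centralizer hXs hcs hs1 hP.xsG.zne hz
  have hleA := inf_centralizer_le (z := z) hXs
  have hnA := inf_centralizer_norm (z := z) hNs
  change A = ((QG Q).map (MulAut.conj g).toMonoidHom ⊓
    Subgroup.centralizer ({z} : Set G)).subgroupOf (Subgroup.centralizer ({z} : Set G)) at hA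
  change _ ∧ _ ∧ _ ∧ _ ∧ _ ∧ Nat.card ↥(QG Q ⊓ (QG Q).map (MulAut.conj g).toMonoidHom) = _
  have hcard_eq : Nat.card ↥(QG Q ⊓ (QG Q).map (MulAut.conj g).toMonoidHom) =
      Nat.card (A ⊓ Q : Subgroup (Subgroup.centralizer ({z} : Set G))) := by
    have h1 : (A ⊓ Q).map (Subgroup.centralizer ({z} : Set G)).subtype =
        QG Q ⊓ (QG Q).map (MulAut.conj g).toMonoidHom := by
      ext x
      constructor
      · rintro ⟨y, ⟨hyA, hyQ⟩, rfl⟩
        rw [hA] at hyA
        exact ⟨⟨y, hyQ, rfl⟩, hyA.1⟩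
      · rintro ⟨⟨y, hyQ, rfl⟩, hy2⟩
        refine ⟨y, ⟨?_, hyQ⟩, rfl⟩
        rw [hA]
        exact ⟨hy2, y.2⟩
    rw [← h1, Subgroup.card_map_of_injective Subtype.coe_injective]
  refine ⟨?_, ?_, ?_, ?_, ?_, hcard_eq⟩
  · rw [hA, hX]
    intro a ha
    exact hleA ha
  · rw [hA, hX]
    intro x hx a ha
    exact hnA x hx a ha
  · rw [hA, Nat.card_congr (Subgroup.subgroupOfEquivOfLe inf_le_right).toEquiv, hcA]
  · have h1 : Nat.card ((A ⊓ Q).subgroupOf Q) ≤ 2 ^ 13 := by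
      apply card_abelian_le13 hS.2.2.1 hP.hcard
      rintro ⟨a, haQ⟩ ha ⟨b, hbQ⟩ hb
      apply Subtype.ext
      apply Subtype.ext
      have ha1 : a ∈ A := ha.1
      have hb1 : b ∈ A := hb.1
      rw [hA] at ha1 hb1
      exact comm_of_mem_both hP.xsG hXs hs1 ⟨a, haQ, rfl⟩ ha1.1 ⟨b, hbQ, rfl⟩ hb1.1
    rwa [Nat.card_congr (Subgroup.subgroupOfEquivOfLe inf_le_right).toEquiv] at h1
  · obtain ⟨v, hv, hLv⟩ := hP.conj_imp hF hsQ (isConj_iff.2 ⟨g, hg⟩) hs1
    obtain ⟨s0, hs0⟩ := exists_x ψ x0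
    obtain ⟨h, hh⟩ := hP.conj64 hF hv sqNorm_x0 hLv hs0
    have h1 := split24_centralizer_x0 hP.hψ hP.hX hs0
    rw [← hh] at h1
    have h2 := split24_centralizer_conj h h1
    have h3 : X = Subgroup.centralizer {(⟨s, hsc⟩ : Subgroup.centralizer ({z} : Set G))} := by
      rw [hX]
      ext x
      rw [Subgroup.mem_subgroupOf, Subgroup.mem_inf, Subgroup.mem_centralizer_singleton_iff,
        Subgroup.mem_centralizer_singleton_iff, Subgroup.mem_centralizer_singleton_iff]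
      constructor
      · rintro ⟨-, h4⟩
        exact Subtype.ext h4
      · intro h4
        exact ⟨Subgroup.mem_centralizer_singleton_iff.1 x.2, congrArg Subtype.val h4⟩
    rw [h3]
    exact h2

end Cfsg.Agent.Lib.Helper91
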