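import Cfsg.Agent.Lib.Helper91.TTSimple

/-!
# Primitive 3-transposition groups in which `D_d` has a non-trivial `W`-class

If two different members of `D_d` have the same commuting partners in `D_d`, then no two different
members of `D_d` commute.
-/

set_option autoImplicit false

namespace Cfsg.Agent.Lib.Helper91

open Cfsg Cfsg.Agent.Lib.Helper28

section
variable {G : Type*} [Group G] {D : Set G}

/-- the non-commuting graph of a class of 3-transpositions has diameter at most two -/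
theorem exists_common_noncommuting (hD : IsThreeTranspositionClass D) {d e : G} (hd : d ∈ D)
    (he : e ∈ D) : e = d ∨ ¬ Commute d e ∨ ∃ a ∈ D, ¬ Commute a d ∧ ¬ Commute a e := by
  obtain ⟨hS, hconj, hgen⟩ := tt_class_toGroup hD
  set M : Set G := {y | y ∈ D ∧ (y = d ∨ ¬ Commute d y ∨ ∃ a ∈ D, ¬ Commute a d ∧ ¬ Commute a y)}
    with hM
  by_cases hMD : M = D
  · have : e ∈ M := by rw [hMD]; exact he
    exact this.2
  exfalso
  obtain ⟨x, hx, z, hz, hzM, hxz⟩ := exists_cross_not_commute hD (M := M) (fun y hy => hy.1)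
    ⟨d, hd, Or.inl rfl⟩ hMD
  have hz1 : Commute d z := by
    by_contra h
    exact hzM ⟨hz, Or.inr (Or.inl h)⟩
  have hz2 : ∀ a ∈ D, ¬ Commute a d → Commute a z := by
    intro a ha had
    by_contra h
    exact hzM ⟨hz, Or.inr (Or.inr ⟨a, ha, had, h⟩)⟩
  have hxd : Commute x d := by
    by_contra h
    exact hxz (hz2 x hx.1 h)
  rcases hx.2 with rfl | h | ⟨a, ha, had, hax⟩
  · exact hxz hz1
  · exact h hxd.symm
  · have haz := hz2 a ha had
    have h1 : ¬ Commute (x * a * x⁻¹) d := by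
      rw [commute_conj_iff]
      have e1 : x⁻¹ * d * x = d := by rw [mul_assoc, ← hxd.eq, inv_mul_cancel_left]
      rwa [e1]
    have h2 := hz2 _ (hconj x a ha) h1
    have e2 : x * a * x⁻¹ = a * x * a⁻¹ := by
      rw [tt_inv hS hx.1, tt_inv hS ha]
      exact tt_braid hS hx.1 ha (fun h => hax h.symm)
    rw [e2, commute_conj_iff] at h2
    have e3 : a⁻¹ * z * a = z := by rw [mul_assoc, ← haz.eq, inv_mul_cancel_left]
    rw [e3] at h2
    exact hxz h2

theorem WRel.conj_set {B : Set G} {u w : G} (h : WRel B u w) (g : G) :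
    WRel (cs g B) (g * u * g⁻¹) (g * w * g⁻¹) := by
  refine ⟨conj_mem_cs h.1, conj_mem_cs h.2.1, ?_⟩
  rintro _ ⟨y, hy, rfl⟩
  have key : ∀ x : G, g * y * g⁻¹ ≠ g * x * g⁻¹ ↔ y ≠ x := by
    intro x
    apply not_congr
    constructor
    · intro hh; exact mul_left_cancel (mul_right_cancel hh)
    · rintro rfl; rfl
  rw [key, key, Commute.conj_iff, Commute.conj_iff]
  exact h.2.2 y hy

theorem cs_Dc (hconj : ∀ g : G, ∀ d ∈ D, g * d * g⁻¹ ∈ D) (g d : G) :
    cs g (Dc D d) = Dc D (g * d * g⁻¹) := by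
  ext y
  constructor
  · rintro ⟨z, hz, rfl⟩
    exact conj_mem_Dc hconj g hz
  · intro hy
    rw [mem_cs]
    have := conj_mem_Dc hconj g⁻¹ hy
    have e : g⁻¹ * (g * d * g⁻¹) * g⁻¹⁻¹ = d := by group
    rwa [e, inv_inv] at this

theorem WRel.conj_Dc (hconj : ∀ g : G, ∀ d ∈ D, g * d * g⁻¹ ∈ D) {d u w : G}
    (h : WRel (Dc D d) u w) (g : G) :
    WRel (Dc D (g * d * g⁻¹)) (g * u * g⁻¹) (g * w * g⁻¹) := by
  rw [← cs_Dc hconj]
  exact h.conj_set g

theorem conj_eq_of_commute {g x : G} (h : Commute g x) : g * x * g⁻¹ = x := by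
  rw [h.eq, mul_inv_cancel_right]

theorem s4_swap_id (a d f : G) (a2 : a * a = 1) (d2 : d * d = 1) (f2 : f * f = 1)
    (b1 : a * f * a = f * a * f) (b2 : a * d * a = d * a * d) (c1 : d * f = f * d) :
    (a * f * d * a) * (a * d * f * a) = 1 ∧ a * d * f * a * d * (a * f * d * a) = f ∧
      a * d * f * a * f * (a * f * d * a) = d := by
  refine ⟨?_, ?_, ?_⟩ <;> grind (acSteps := 10000000)

theorem s3_swap_id (a d : G) (a2 : a * a = 1) (d2 : d * d = 1) (b2 : a * d * a = d * a * d) :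
    (a * d * a) * (a * d * a) = 1 ∧ (a * d * a) * a * (a * d * a) = d ∧
      (a * d * a) * d * (a * d * a) = a := by
  refine ⟨?_, ?_, ?_⟩ <;> grind (acSteps := 10000000)

/-- the basic configuration -/
structure Cfg (D : Set G) (d e f a : G) : Prop where
  hd : d ∈ D
  ha : a ∈ D
  w : WRel (Dc D d) e f
  ef : ¬ Commute e f
  ae : Commute a e
  af : ¬ Commute a f
  ad : ¬ Commute a d

theorem Cfg.commute (hS : IsThreeTranspositionSet D) (hconj : ∀ g : G, ∀ d ∈ D, g * d * g⁻¹ ∈ D)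
    {d e f a : G} (C : Cfg D d e f a) {h : G} (hh : h ∈ D) (hhd : h ≠ d) (hhe : h ≠ e)
    (hdh : Commute d h) (heh : Commute e h) : Commute a h := by
  by_contra hah
  obtain ⟨hd, ha, w, ef, ae, af, ad⟩ := C
  have he : e ∈ D := w.1.1
  have hf : f ∈ D := w.2.1.1
  have de : Commute d e := w.1.2.2
  have df : Commute d f := w.2.1.2.2
  have hB : h ∈ Dc D d := ⟨hh, hhd, hdh⟩
  obtain ⟨hhf, hfh⟩ := (w.2.2 h hB).mp ⟨hhe, heh⟩
  have a2 := tt_sq hS ha
  have d2 := tt_sq hS hd
  have f2 := tt_sq hS hf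
  have e2 := tt_sq hS he
  have h2 := tt_sq hS hh
  have b1 : a * f * a = f * a * f := tt_braid hS ha hf af
  have b2 : a * d * a = d * a * d := tt_braid hS ha hd ad
  have b3 : a * h * a = h * a * h := tt_braid hS ha hh hah
  have c1 : d * f = f * d := df
  have c2 : a * e = e * a := ae
  have c3 : d * e = e * d := de
  obtain ⟨j0, j1, j2⟩ := s4_swap_id a d f a2 d2 f2 b1 b2 c1
  have hinv : (a * f * d * a)⁻¹ = a * d * f * a := inv_eq_of_mul_eq_one_right j0
  have i1 : (a * f * d * a)⁻¹ * d * (a * f * d * a) = f := by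
    rw [hinv]; exact j1
  have i2 : (a * f * d * a)⁻¹ * f * (a * f * d * a) = d := by
    rw [hinv]; exact j2
  have i3 : (a * f * d * a)⁻¹ * e * (a * f * d * a) = a * (f * e * f) * a⁻¹ := by
    rw [hinv, tt_inv hS ha]
    calc a * d * f * a * e * (a * f * d * a) = a * d * f * (a * e) * a * f * d * a := by
          simp only [mul_assoc]
      _ = a * d * f * e * (a * a) * f * d * a := by rw [c2]; simp only [mul_assoc]
      _ = a * (d * f) * e * f * d * a := by rw [a2]; simp only [mul_assoc, mul_one]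
      _ = a * f * (d * e) * f * d * a := by rw [c1]; simp only [mul_assoc]
      _ = a * f * e * (d * f) * d * a := by rw [c3]; simp only [mul_assoc]
      _ = a * f * e * f * (d * d) * a := by rw [c1]; simp only [mul_assoc]
      _ = a * (f * e * f) * a := by rw [d2]; simp only [mul_assoc, mul_one]
  set σ := a * f * d * a with hσ
  set r := σ * h * σ⁻¹ with hr
  have hrD : r ∈ D := hconj σ h hh
  have r1 : Commute r d := by rw [hr, commute_conj_iff, i1]; exact hfh.symm
  have r2 : Commute r f := by rw [hr, commute_conj_iff, i2]; exact hdh.symm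
  have hback : ∀ x : G, r = x → h = σ⁻¹ * x * σ := by
    intro x hx
    rw [← hx, hr]; group
  have r3 : r ≠ d := by
    intro hx
    apply hhf
    rw [hback d hx, i1]
  have r4 : r ≠ f := by
    intro hx
    apply hhd
    rw [hback f hx, i2]
  have r5 := ((w.2.2 r ⟨hrD, r3, r1.symm⟩).mpr ⟨r4, r2.symm⟩).2
  have r6 : Commute h (a * (f * e * f) * a⁻¹) := by
    have := r5.symm
    rwa [hr, commute_conj_iff, i3] at this
  have r7 : Commute (a⁻¹ * h * a) (f * e * f) := ((commute_conj_iff a (f * e * f) h).mp r6.symm).symm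
  have r8 : Commute h (f * e * f) := (hfh.symm.mul_right heh.symm).mul_right hfh.symm
  have ea : a = h * (a⁻¹ * h * a) * h := by
    rw [tt_inv hS ha, b3]
    calc a = (h * h) * a * (h * h) := by rw [h2, one_mul, mul_one]
      _ = _ := by simp only [mul_assoc]
  have r9 : Commute a (f * e * f) := by
    rw [ea]
    exact (r8.mul_left r7).mul_left r8
  have r10 : Commute (f * a * f) e := by
    have h1 : Commute (f * e * f⁻¹) a := by rw [tt_inv hS hf]; exact r9.symm
    rw [commute_conj_iff, tt_inv hS hf] at h1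
    exact h1.symm
  have ef' : f = a * (f * a * f) * a := by
    rw [← b1]
    calc f = (a * a) * f * (a * a) := by rw [a2, one_mul, mul_one]
      _ = _ := by simp only [mul_assoc]
  apply ef
  rw [ef']
  exact ((ae.mul_left r10).mul_left ae).symm

/-- `a` and `d` have the same commuting partners in `D_e` -/
theorem Cfg.wrel (hS : IsThreeTranspositionSet D) (hconj : ∀ g : G, ∀ d ∈ D, g * d * g⁻¹ ∈ D)
    {d e f a : G} (C : Cfg D d e f a) : WRel (Dc D e) d a := by
  have hd := C.hd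
  have ha := C.ha
  have he : e ∈ D := C.w.1.1
  have de : Commute d e := C.w.1.2.2
  have hde : e ≠ d := C.w.1.2.1
  have hae : a ≠ e := by
    rintro rfl
    exact C.ad de.symm
  have fwd : ∀ y ∈ Dc D e, y ≠ d → Commute d y → y ≠ a ∧ Commute a y := by
    intro y hy hyd hdy
    refine ⟨?_, C.commute hS hconj hy.1 hyd hy.2.1 hdy hy.2.2⟩
    rintro rfl
    exact C.ad hdy.symm
  refine ⟨⟨hd, hde.symm, de.symm⟩, ⟨ha, hae, C.ae.symm⟩, fun y hy => ⟨fun h => fwd y hy h.1 h.2, ?_⟩⟩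
  rintro ⟨hya, hay⟩
  -- conjugate by `c = a d a`
  have a2 := tt_sq hS ha
  have d2 := tt_sq hS hd
  have b2 : a * d * a = d * a * d := tt_braid hS ha hd C.ad
  obtain ⟨j0, j1, j2⟩ := s3_swap_id a d a2 d2 b2
  have hcinv : (a * d * a)⁻¹ = a * d * a := inv_eq_of_mul_eq_one_right j0
  have hce : Commute (a * d * a) e := (C.ae.mul_left de).mul_left C.ae
  have k1 : (a * d * a) * a * (a * d * a)⁻¹ = d := by
    rw [hcinv]; exact j1
  have k2 : (a * d * a) * d * (a * d * a)⁻¹ = a := by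
    rw [hcinv]; exact j2
  set c := a * d * a with hc
  have hy' : c * y * c⁻¹ ∈ Dc D e := by
    have := conj_mem_Dc hconj c hy
    rwa [conj_eq_of_commute hce] at this
  have h1 : c * y * c⁻¹ ≠ d := by
    intro h
    apply hya
    rw [← k1] at h
    exact mul_left_cancel (mul_right_cancel h)
  have h2 : Commute d (c * y * c⁻¹) := by
    rw [← k1]
    exact (Commute.conj_iff c).mpr hay
  obtain ⟨-, h3⟩ := fwd _ hy' h1 h2
  rw [← k2] at h3
  refine ⟨?_, (Commute.conj_iff c).mp h3⟩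
  rintro rfl
  exact C.ad hay

end

section
variable {G : Type*} [Group G] [Finite G] {D : Set G}

/-- `W`-classes of a primitive 3-transposition group of width at least two are trivial -/
theorem WRel.eq_of_primitive (hG : IsThreeTranspositionGroup D) (hprim : IsPrimitiveUnderConj D)
    (hw : ∃ a ∈ D, ∃ b ∈ D, a ≠ b ∧ Commute a b) {d w : G} (h : WRel D d w) : d = w := by
  obtain ⟨hS, hconj, hgen⟩ := id hG
  have hB : IsBlk {w | WRel D d w} :=
    isBlk_of_rel (fun _ _ h => h.symm) (fun _ _ _ h h' => h.trans h') (fun g _ _ h => h.conj hconj g) d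
  rcases hprim.2.2 _ (fun w hw => hw.2.1) hB with h' | h'
  · exact h' (WRel.refl h.1) h
  · exfalso
    obtain ⟨a, ha, b, hb, hab, hc⟩ := hw
    have h1 : WRel D d a := by
      have : a ∈ {w | WRel D d w} := by rw [h']; exact ha
      exact this
    have h2 : WRel D d b := by
      have : b ∈ {w | WRel D d w} := by rw [h']; exact hb
      exact this
    exact (h1.symm.trans h2).not_commute hab hc

/-- transitivity on ordered non-commuting pairs -/
theorem exists_conj_pair (hG : IsThreeTranspositionGroup D) (hprim : IsPrimitiveUnderConj D)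
    (hw : ∃ a ∈ D, ∃ b ∈ D, a ≠ b ∧ Commute a b) {e f p q : G} (he : e ∈ D) (hf : f ∈ D)
    (hp : p ∈ D) (hq : q ∈ D) (hef : ¬ Commute e f) (hpq : ¬ Commute p q) :
    ∃ g : G, g * e * g⁻¹ = p ∧ g * f * g⁻¹ = q := by
  obtain ⟨hS, hconj, hgen⟩ := id hG
  obtain ⟨g₁, hg₁⟩ := hprim.1 e he p hp
  have h1 : ¬ Commute p (g₁ * f * g₁⁻¹) := by
    rw [← hg₁, Commute.conj_iff]; exact hef
  obtain ⟨g₂, hg₂, hg₂'⟩ := centralizer_transitive_noncommuting hG hprim hw hp (hconj g₁ f hf) hq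
    h1 hpq
  refine ⟨g₂ * g₁, ?_, ?_⟩
  · have e1 : g₂ * g₁ * e * (g₂ * g₁)⁻¹ = g₂ * (g₁ * e * g₁⁻¹) * g₂⁻¹ := by group
    rw [e1, hg₁, conj_eq_of_commute hg₂]
  · have e1 : g₂ * g₁ * f * (g₂ * g₁)⁻¹ = g₂ * (g₁ * f * g₁⁻¹) * g₂⁻¹ := by group
    rw [e1, hg₂']

/-- from a non-trivial `W`-class in `D_d` to a configuration -/
theorem exists_cfg (hG : IsThreeTranspositionGroup D) (hprim : IsPrimitiveUnderConj D) {d e f : G}
    (hd : d ∈ D) (w : WRel (Dc D d) e f) (hef : e ≠ f) :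
    ∃ e' f' a : G, Cfg D d e' f' a := by
  have hw : ∃ a ∈ D, ∃ b ∈ D, a ≠ b ∧ Commute a b := ⟨d, hd, e, w.1.1, w.1.2.1.symm, w.1.2.2⟩
  have key : ∀ e f : G, WRel (Dc D d) e f → e ≠ f → ∀ y ∈ D, y ≠ e → Commute e y →
      ¬ (y ≠ f ∧ Commute f y) → Cfg D d e f y := by
    intro e f w hef y hy hye hey hn
    have hnc := w.not_commute hef
    have hyf : y ≠ f := by
      rintro rfl
      exact hnc hey
    have hfy : ¬ Commute f y := fun h => hn ⟨hyf, h⟩
    refine ⟨hd, hy, w, hnc, hey.symm, fun h => hfy h.symm, ?_⟩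
    intro hyd
    have hyd' : y ≠ d := by
      rintro rfl
      exact hfy w.2.1.2.2.symm
    exact hn ((w.2.2 y ⟨hy, hyd', hyd.symm⟩).mp ⟨hye, hey⟩)
  have hnw : ¬ WRel D e f := fun h => hef (h.eq_of_primitive hG hprim hw)
  have : ∃ y ∈ D, ¬ ((y ≠ e ∧ Commute e y) ↔ (y ≠ f ∧ Commute f y)) := by
    by_contra hcon
    push Not at hcon
    exact hnw ⟨w.1.1, w.2.1.1, hcon⟩
  obtain ⟨y, hy, hyn⟩ := this
  by_cases h1 : y ≠ e ∧ Commute e y
  · have h2 : ¬ (y ≠ f ∧ Commute f y) := fun h => hyn ⟨fun _ => h, fun _ => h1⟩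
    exact ⟨e, f, y, key e f w hef y hy h1.1 h1.2 h2⟩
  · have h2 : y ≠ f ∧ Commute f y := by
      by_contra h
      exact hyn ⟨fun h' => absurd h' h1, fun h' => absurd h' h⟩
    exact ⟨f, e, y, key f e w.symm hef.symm y hy h2.1 h2.2 h1⟩

/-- the members of `D_p` not commuting with `q` lie in one `W`-class of `D_p` -/
theorem exists_wclass (hG : IsThreeTranspositionGroup D) (hprim : IsPrimitiveUnderConj D)
    {d e f a : G} (C : Cfg D d e f a) {p q : G} (hp : p ∈ D) (hq : q ∈ D) (hpq : ¬ Commute p q) :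
    ∃ s, ∀ y ∈ Dc D p, ¬ Commute q y → WRel (Dc D p) s y := by
  obtain ⟨hS, hconj, hgen⟩ := id hG
  have he : e ∈ D := C.w.1.1
  have hf : f ∈ D := C.w.2.1.1
  have hw : ∃ a ∈ D, ∃ b ∈ D, a ≠ b ∧ Commute a b :=
    ⟨d, C.hd, e, he, C.w.1.2.1.symm, C.w.1.2.2⟩
  have base : ∀ y ∈ Dc D e, ¬ Commute f y → WRel (Dc D e) d y := by
    intro y hy hfy
    have C' : Cfg D d e f y := by
      refine ⟨C.hd, hy.1, C.w, C.ef, hy.2.2.symm, fun h => hfy h.symm, ?_⟩
      intro hyd
      have hyd' : y ≠ d := by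
        rintro rfl
        exact hfy C.w.2.1.2.2.symm
      exact hfy ((C.w.2.2 y ⟨hy.1, hyd', hyd.symm⟩).mp ⟨hy.2.1, hy.2.2⟩).2
    exact C'.wrel hS hconj
  obtain ⟨g, hg1, hg2⟩ := exists_conj_pair hG hprim hw he hf hp hq C.ef hpq
  refine ⟨g * d * g⁻¹, fun y hy hqy => ?_⟩
  have hy0 : g⁻¹ * y * g ∈ Dc D e := by
    have := conj_mem_Dc hconj g⁻¹ hy
    have e1 : g⁻¹ * p * g⁻¹⁻¹ = e := by rw [← hg1]; group
    rwa [e1, inv_inv] at this
  have hfy0 : ¬ Commute f (g⁻¹ * y * g) := by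
    rw [← commute_conj_iff, hg2]; exact hqy
  have := (base _ hy0 hfy0).conj_Dc hconj g
  have e2 : g * (g⁻¹ * y * g) * g⁻¹ = y := by group
  rwa [hg1, e2] at this

/-- non-commuting members of `D_d` are `W`-related in `D_d` -/
theorem wrel_of_not_commute (hG : IsThreeTranspositionGroup D) (hprim : IsPrimitiveUnderConj D)
    {d₀ e f a : G} (C : Cfg D d₀ e f a) {d e₁ e₂ : G} (hd : d ∈ D) (h₁ : e₁ ∈ Dc D d)
    (h₂ : e₂ ∈ Dc D d) (hn : ¬ Commute e₁ e₂) : WRel (Dc D d) e₁ e₂ := by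
  obtain ⟨hS, hconj, hgen⟩ := id hG
  have hD := class_of_primitive hG hprim
  rcases exists_common_noncommuting hD hd h₁.1 with h | h | ⟨b, hb, hbd, hbe⟩
  · exact absurd h h₁.2.1
  · exact absurd h₁.2.2 h
  obtain ⟨s, hs⟩ := exists_wclass hG hprim C hd hb (fun h => hbd h.symm)
  have w1 := hs e₁ h₁ hbe
  by_cases hb2 : Commute b e₂
  · -- the third point of the line
    have hc2 : Commute e₂ d := h₂.2.2.symm
    have h3 : e₂ * e₁ * e₂⁻¹ ∈ Dc D d := by
      have := conj_mem_Dc hconj e₂ h₁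
      rwa [conj_eq_of_commute hc2] at this
    have hb3 : ¬ Commute b (e₂ * e₁ * e₂⁻¹) := by
      intro h
      apply hbe
      have := (commute_conj_iff e₂ e₁ b).mp h.symm
      have e1 : e₂⁻¹ * b * e₂ = b := by rw [mul_assoc, hb2.eq, inv_mul_cancel_left]
      rw [e1] at this
      exact this.symm
    have w3 := hs _ h3 hb3
    have w13 : WRel (Dc D d) e₁ (e₂ * e₁ * e₂⁻¹) := w1.symm.trans w3
    -- conjugate by e₁
    have hc1 : Commute e₁ d := h₁.2.2.symm
    have := w13.conj_Dc hconj e₁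
    rw [conj_eq_of_commute hc1, conj_eq_of_commute (Commute.refl e₁)] at this
    have e3 : e₁ * (e₂ * e₁ * e₂⁻¹) * e₁⁻¹ = e₂ := by
      have br : e₁ * e₂ * e₁ = e₂ * e₁ * e₂ := tt_braid hS h₁.1 h₂.1 hn
      rw [tt_inv hS h₁.1, tt_inv hS h₂.1, ← br]
      calc e₁ * (e₁ * e₂ * e₁) * e₁ = (e₁ * e₁) * e₂ * (e₁ * e₁) := by simp only [mul_assoc]
        _ = e₂ := by rw [tt_sq hS h₁.1, one_mul, mul_one]
    rwa [e3] at this
  · exact w1.symm.trans (hs e₂ h₂ hb2)

/-- `D_d` is a single `W`-class: no two different members of `D_d` commute -/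
theorem not_commute_of_cfg (hG : IsThreeTranspositionGroup D) (hprim : IsPrimitiveUnderConj D)
    {d₀ e f a : G} (C : Cfg D d₀ e f a) {d y y' : G} (hd : d ∈ D) (hy : y ∈ Dc D d)
    (hy' : y' ∈ Dc D d) (hne : y ≠ y') : ¬ Commute y y' := by
  obtain ⟨hS, hconj, hgen⟩ := id hG
  obtain ⟨g, hg, rfl⟩ := Dc_single_class hG hprim hd hy hy'
  have key : ∀ z ∈ {z | WRel (Dc D d) y z}, g * z * g⁻¹ ∈ {z | WRel (Dc D d) y z} := by
    apply conj_mem_of_mem_closure (S := Dc D d) _ _ hg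
    · intro s hs
      rwa [tt_inv hS hs.1]
    · intro s hs z hz
      by_cases hc : Commute s z
      · rw [conj_eq_of_commute hc]; exact hz
      · have w1 : WRel (Dc D d) s z := wrel_of_not_commute hG hprim C hd hs hz.2.1 hc
        have w2 := w1.conj_Dc hconj s
        rw [conj_eq_of_commute hs.2.2.symm, conj_eq_of_commute (Commute.refl s)] at w2
        exact (WRel.trans hz w1.symm).trans w2
  exact (key y (WRel.refl hy)).not_commute hne

end

end Cfsg.Agent.Lib.Helper91
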