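import Cfsg.Agent.Lib.Helper91.TTW1

/-!
# Primitive 3-transposition groups in which `D_d` has a non-trivial `W`-class, II

Fixed point counting modulo 3: `D_d` has exactly three members.
-/

set_option autoImplicit false

namespace Cfsg.Agent.Lib.Helper91

open Cfsg Cfsg.Agent.Lib.Helper28

section Count
variable {G : Type*} [Group G] [Finite G]

/-- fixed point congruence for the conjugation action of a `p`-subgroup on an invariant set -/
theorem ncard_modEq_fixed {p : ℕ} [Fact p.Prime] {Q : Subgroup G} (hQ : IsPGroup p Q) {X : Set G}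
    (hX : ∀ q ∈ Q, ∀ x ∈ X, q * x * q⁻¹ ∈ X) :
    X.ncard ≡ {x | x ∈ X ∧ ∀ q ∈ Q, q * x * q⁻¹ = x}.ncard [MOD p] := by
  letI : MulAction Q X :=
    { smul := fun q x => ⟨q * x * (q : G)⁻¹, hX q q.2 x x.2⟩
      one_smul := by
        rintro ⟨x, hx⟩
        apply Subtype.ext
        show (1 : G) * x * (1 : G)⁻¹ = x
        simp
      mul_smul := by
        rintro ⟨q, hq⟩ ⟨q', hq'⟩ ⟨x, hx⟩
        apply Subtype.ext
        show (q * q') * x * (q * q')⁻¹ = q * (q' * x * q'⁻¹) * q⁻¹
        group }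
  have h := hQ.card_modEq_card_fixedPoints X
  have e1 : Nat.card X = X.ncard := Nat.card_coe_set_eq X
  have e2 : Nat.card (MulAction.fixedPoints Q X) = {x | x ∈ X ∧ ∀ q ∈ Q, q * x * q⁻¹ = x}.ncard := by
    rw [Nat.card_coe_set_eq, ← Set.ncard_image_of_injective _ Subtype.val_injective]
    congr 1
    ext x
    constructor
    · rintro ⟨⟨y, hy⟩, hfix, rfl⟩
      refine ⟨hy, fun q hq => ?_⟩
      exact congrArg Subtype.val (hfix ⟨q, hq⟩)
    · rintro ⟨hx, hfix⟩
      refine ⟨⟨x, hx⟩, ?_, rfl⟩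
      rintro ⟨q, hq⟩
      exact Subtype.ext (hfix q hq)
  rwa [e1, e2] at h

/-- the same for the cyclic group generated by an element of order dividing three -/
theorem ncard_modEq_fixed_three {u : G} (hu : u ^ 3 = 1) {X : Set G}
    (hX : ∀ x ∈ X, u * x * u⁻¹ ∈ X) :
    X.ncard ≡ {x | x ∈ X ∧ Commute u x}.ncard [MOD 3] := by
  have : Fact (Nat.Prime 3) := ⟨Nat.prime_three⟩
  have hQ : IsPGroup 3 (Subgroup.zpowers u) := by
    rintro ⟨g, hg⟩
    obtain ⟨k, rfl⟩ := Subgroup.mem_zpowers_iff.mp hg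
    refine ⟨1, ?_⟩
    apply Subtype.ext
    show (u ^ k) ^ (3 ^ 1) = 1
    rw [pow_one, ← zpow_natCast, ← zpow_mul, mul_comm, zpow_mul, zpow_natCast, hu, one_zpow]
  have hX' : ∀ q ∈ Subgroup.zpowers u, ∀ x ∈ X, q * x * q⁻¹ ∈ X := by
    intro q hq
    rw [Subgroup.zpowers_eq_closure] at hq
    refine conj_mem_of_mem_closure (S := {u, u⁻¹}) ?_ ?_ (Subgroup.closure_mono (by simp) hq)
    · rintro s (rfl | rfl)
      · simp
      · simp
    · rintro s (rfl | rfl) x hx
      · exact hX x hx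
      · -- u⁻¹ = u ^ 2
        have e : u⁻¹ = u * u := by
          apply inv_eq_of_mul_eq_one_right
          rw [← hu]; simp only [pow_succ, pow_zero, one_mul, mul_assoc]
        have := hX _ (hX x hx)
        have e2 : u⁻¹ * x * u⁻¹⁻¹ = u * (u * x * u⁻¹) * u⁻¹ := by
          rw [inv_inv]
          calc u⁻¹ * x * u = u⁻¹ * x * (u⁻¹)⁻¹ := by rw [inv_inv]
            _ = (u * u) * x * (u * u)⁻¹ := by rw [e]
            _ = _ := by group
        rw [e2]; exact this
  have h := ncard_modEq_fixed hQ hX'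
  have e : {x | x ∈ X ∧ ∀ q ∈ Subgroup.zpowers u, q * x * q⁻¹ = x} = {x | x ∈ X ∧ Commute u x} := by
    ext x
    constructor
    · rintro ⟨hx, hfix⟩
      refine ⟨hx, ?_⟩
      have := hfix u (Subgroup.mem_zpowers u)
      show u * x = x * u
      calc u * x = u * x * u⁻¹ * u := by group
        _ = x * u := by rw [this]
    · rintro ⟨hx, hc⟩
      refine ⟨hx, fun q hq => ?_⟩
      obtain ⟨k, rfl⟩ := Subgroup.mem_zpowers_iff.mp hq
      exact conj_eq_of_commute (hc.zpow_left k)
  rwa [e] at h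

end Count

section
variable {G : Type*} [Group G] {D : Set G}

theorem s3_collapse (z e f : G) (z2 : z * z = 1) (e2 : e * e = 1) (f2 : f * f = 1)
    (b1 : z * e * z = e * z * e) (b2 : e * f * e = f * e * f) (c : z * (e * f) = e * f * z) :
    e * f = f * e := by
  grind (acSteps := 10000000)

/-- a member of `D` commuting with the product of two non-commuting members commutes with both -/
theorem commute_of_commute_mul (hS : IsThreeTranspositionSet D) {z e f : G} (hz : z ∈ D)
    (he : e ∈ D) (hf : f ∈ D) (hef : ¬ Commute e f) (h : Commute z (e * f)) :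
    Commute z e ∧ Commute z f := by
  have h1 : Commute z e := by
    by_contra hn
    exact hef (s3_collapse z e f (tt_sq hS hz) (tt_sq hS he) (tt_sq hS hf) (tt_braid hS hz he hn)
      (tt_braid hS he hf hef) h)
  refine ⟨h1, ?_⟩
  have e1 : f = e * (e * f) := by rw [← mul_assoc, tt_sq hS he, one_mul]
  rw [e1]
  exact h1.mul_right h

theorem plane_id (a y f : G) (a2 : a * a = 1) (y2 : y * y = 1) (f2 : f * f = 1)
    (b1 : a * y * a = y * a * y) (b2 : a * f * a = f * a * f) (b3 : y * f * y = f * y * f)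
    (b4 : a * (f * y * f) * a = (f * y * f) * a * (f * y * f)) :
    (a * (y * f) * a) * (a * (f * y) * a) = 1 ∧
      (a * (f * y) * a) * y * (a * (y * f) * a) = f ∧
      (a * (f * y) * a) * f * (a * (y * f) * a) = f * y * f := by
  refine ⟨?_, ?_, ?_⟩ <;> grind (acSteps := 10000000)

/-- the members of `D` commuting with `p` and `q` -/
def Mc (D : Set G) (p q : G) : Set G := {z | z ∈ D ∧ Commute z p ∧ Commute z q}

theorem cs_Mc (hconj : ∀ g : G, ∀ d ∈ D, g * d * g⁻¹ ∈ D) (g p q : G) :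
    cs g (Mc D p q) = Mc D (g * p * g⁻¹) (g * q * g⁻¹) := by
  ext y
  constructor
  · rintro ⟨z, hz, rfl⟩
    exact ⟨hconj g z hz.1, (Commute.conj_iff g).mpr hz.2.1, (Commute.conj_iff g).mpr hz.2.2⟩
  · rintro ⟨h1, h2, h3⟩
    rw [mem_cs]
    refine ⟨?_, ?_, ?_⟩
    · have := hconj g⁻¹ y h1
      rwa [inv_inv] at this
    · exact ((commute_conj_iff g p y).mp h2.symm).symm
    · exact ((commute_conj_iff g q y).mp h3.symm).symm

end

section
variable {G : Type*} [Group G] [Finite G] {D : Set G}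

theorem Mc_subsingleton (hG : IsThreeTranspositionGroup D) (hprim : IsPrimitiveUnderConj D)
    {d e f a : G} (C : Cfg D d e f a) {p q : G} (hp : p ∈ D) (hq : q ∈ D) (hpq : ¬ Commute p q) :
    (Mc D p q).Subsingleton := by
  obtain ⟨hS, hconj, hgen⟩ := id hG
  have hd := C.hd
  have he : e ∈ D := C.w.1.1
  have hf : f ∈ D := C.w.2.1.1
  have de : Commute d e := C.w.1.2.2
  have df : Commute d f := C.w.2.1.2.2
  have hw : ∃ a ∈ D, ∃ b ∈ D, a ≠ b ∧ Commute a b := ⟨d, hd, e, he, C.w.1.2.1.symm, de⟩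
  have L0 : ∀ d ∈ D, ∀ y ∈ Dc D d, ∀ y' ∈ Dc D d, y ≠ y' → ¬ Commute y y' :=
    fun d hd y hy y' hy' hne => not_commute_of_cfg hG hprim C hd hy hy' hne
  have hcube : ∀ x ∈ D, ∀ y ∈ D, ¬ Commute x y → (x * y) ^ 3 = 1 := fun x hx y hy h =>
    tt_cube hS hx hy h
  set A : Set G := {x | x ∈ D ∧ ¬ Commute x d} with hA
  -- (A) the number of members of `A` is divisible by three
  have hA0 : A.ncard ≡ 0 [MOD 3] := by
    have : Fact (Nat.Prime 3) := ⟨Nat.prime_three⟩
    have W : Braided (Dc D d) := by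
      refine ⟨fun x hx => tt_sq hS hx.1, ?_, ?_⟩
      · intro x hx y hy
        by_cases hxy : x = y
        · rw [hxy]
        · exact tt_braid hS hx.1 hy.1 (L0 d hd x hx y hy hxy)
      · intro x hx y hy
        have := conj_mem_Dc hconj x hy
        rwa [conj_eq_of_commute hx.2.2.symm, tt_inv hS hx.1] at this
    have hQ := W.isPGroup_closure_mul
    set Q := Subgroup.closure {s | ∃ a ∈ Dc D d, ∃ b ∈ Dc D d, s = a * b} with hQdef
    have hQd : ∀ q ∈ Q, Commute q d := by
      intro q hq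
      induction hq using Subgroup.closure_induction with
      | mem s hs =>
        obtain ⟨x, hx, y, hy, rfl⟩ := hs
        exact (hx.2.2.symm).mul_left hy.2.2.symm
      | one => exact Commute.one_left d
      | mul x y _ _ hx hy => exact hx.mul_left hy
      | inv x _ hx => exact hx.inv_left
    have h1 := ncard_modEq_fixed hQ (X := A) (by
      intro q hq x hx
      refine ⟨hconj q x hx.1, ?_⟩
      intro h
      apply hx.2
      have := (commute_conj_iff q x d).mp h
      have e1 : q⁻¹ * d * q = d := by rw [mul_assoc, ← (hQd q hq).eq, inv_mul_cancel_left]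
      rwa [e1] at this)
    have h2 : {x | x ∈ A ∧ ∀ q ∈ Q, q * x * q⁻¹ = x} = ∅ := by
      rw [Set.eq_empty_iff_forall_notMem]
      rintro x ⟨hx, hfix⟩
      obtain ⟨g, hg, hgx⟩ := centralizer_transitive_noncommuting hG hprim hw hd C.ha hx.1
        (fun h => C.ad h.symm) (fun h => hx.2 h.symm)
      -- x does not commute with g f g⁻¹
      have m1 : g * f * g⁻¹ ∈ Dc D d := by
        have := conj_mem_Dc hconj g C.w.2.1
        rwa [conj_eq_of_commute hg] at this
      have m2 : g * e * g⁻¹ ∈ Dc D d := by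
        have := conj_mem_Dc hconj g C.w.1
        rwa [conj_eq_of_commute hg] at this
      have n1 : ¬ Commute x (g * f * g⁻¹) := by
        rw [← hgx, Commute.conj_iff]; exact C.af
      have n2 : ¬ Commute (g * e * g⁻¹) (g * f * g⁻¹) := by
        rw [Commute.conj_iff]; exact C.ef
      have h3 := hfix ((g * e * g⁻¹) * (g * f * g⁻¹)) (Subgroup.subset_closure ⟨_, m2, _, m1, rfl⟩)
      have h4 : Commute x ((g * e * g⁻¹) * (g * f * g⁻¹)) := by
        show x * _ = _ * x
        calc x * ((g * e * g⁻¹) * (g * f * g⁻¹))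
            = ((g * e * g⁻¹) * (g * f * g⁻¹)) * x * ((g * e * g⁻¹) * (g * f * g⁻¹))⁻¹
              * ((g * e * g⁻¹) * (g * f * g⁻¹)) := by rw [h3]
          _ = _ := by group
      exact n1 (commute_of_commute_mul hS hx.1 m2.1 m1.1 n2 h4).2
    rw [h2, Set.ncard_empty] at h1
    exact h1
  -- (B)
  have hB : A.ncard ≡ (Mc D e f).ncard - 1 [MOD 3] := by
    have h1 := ncard_modEq_fixed_three (hcube e he f hf C.ef) (X := A) (by
      intro x hx
      refine ⟨hconj _ x hx.1, ?_⟩
      intro h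
      apply hx.2
      have := (commute_conj_iff (e * f) x d).mp h
      have hc : Commute (e * f) d := de.symm.mul_left df.symm
      have e1 : (e * f)⁻¹ * d * (e * f) = d := by rw [mul_assoc, ← hc.eq, inv_mul_cancel_left]
      rwa [e1] at this)
    have h2 : {x | x ∈ A ∧ Commute (e * f) x} = Mc D e f \ {d} := by
      ext x
      constructor
      · rintro ⟨hx, hc⟩
        obtain ⟨c1, c2⟩ := commute_of_commute_mul hS hx.1 he hf C.ef hc.symm
        refine ⟨⟨hx.1, c1, c2⟩, ?_⟩
        rintro rfl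
        exact hx.2 (Commute.refl x)
      · rintro ⟨⟨hx, c1, c2⟩, hxd⟩
        refine ⟨⟨hx, ?_⟩, (c1.mul_right c2).symm⟩
        intro hc
        have hxB : x ∈ Dc D d := ⟨hx, hxd, hc.symm⟩
        by_cases hxe : x = e
        · rw [hxe] at c2
          exact C.ef c2
        · exact L0 d hd x hxB e C.w.1 hxe c1
    rw [h2, Set.ncard_diff_singleton_of_mem (show d ∈ Mc D e f from ⟨hd, de, df⟩)] at h1
    exact h1
  have hpos : 0 < (Mc D e f).ncard :=
    (Set.ncard_pos (Set.toFinite _)).mpr ⟨d, hd, de, df⟩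
  -- (C)
  intro y hy y' hy'
  by_contra hne
  have hyB : y ∈ Dc D p := by
    refine ⟨hy.1, ?_, hy.2.1.symm⟩
    rintro rfl
    exact hpq hy.2.2
  have hyB' : y' ∈ Dc D p := by
    refine ⟨hy'.1, ?_, hy'.2.1.symm⟩
    rintro rfl
    exact hpq hy'.2.2
  have hnc : ¬ Commute y y' := L0 p hp y hyB y' hyB' hne
  have hC : (Mc D p q).ncard ≡ 0 [MOD 3] := by
    have h1 := ncard_modEq_fixed_three (hcube y hy.1 y' hy'.1 hnc) (X := Mc D p q) (by
      intro x hx
      have c1 : Commute (y * y') p := hy.2.1.mul_left hy'.2.1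
      have c2 : Commute (y * y') q := hy.2.2.mul_left hy'.2.2
      refine ⟨hconj _ x hx.1, ?_, ?_⟩
      · have := (Commute.conj_iff (y * y')).mpr hx.2.1
        rwa [conj_eq_of_commute c1] at this
      · have := (Commute.conj_iff (y * y')).mpr hx.2.2
        rwa [conj_eq_of_commute c2] at this)
    have h2 : {x | x ∈ Mc D p q ∧ Commute (y * y') x} = ∅ := by
      rw [Set.eq_empty_iff_forall_notMem]
      rintro x ⟨hx, hc⟩
      obtain ⟨c1, c2⟩ := commute_of_commute_mul hS hx.1 hy.1 hy'.1 hnc hc.symm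
      have hxB : x ∈ Dc D p := by
        refine ⟨hx.1, ?_, hx.2.1.symm⟩
        rintro rfl
        exact hpq hx.2.2
      have e1 : x = y := by
        by_contra h
        exact L0 p hp x hxB y hyB h c1
      have e2 : x = y' := by
        by_contra h
        exact L0 p hp x hxB y' hyB' h c2
      exact hne (e1.symm.trans e2)
    rw [h2, Set.ncard_empty] at h1
    exact h1
  obtain ⟨g, hg1, hg2⟩ := exists_conj_pair hG hprim hw he hf hp hq C.ef hpq
  have hcard : (Mc D p q).ncard = (Mc D e f).ncard := by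
    rw [← hg1, ← hg2, ← cs_Mc hconj, ncard_cs]
  rw [hcard] at hC
  have h5 : 0 ≡ (Mc D e f).ncard - 1 [MOD 3] := hA0.symm.trans hB
  unfold Nat.ModEq at hC h5
  omega

/-- `D_d` has exactly three members -/
theorem Dc_eq_of_cfg (hG : IsThreeTranspositionGroup D) (hprim : IsPrimitiveUnderConj D)
    {d e f a : G} (C : Cfg D d e f a) {y : G} (hy : y ∈ Dc D d) :
    y = e ∨ y = f ∨ y = e * f * e := by
  obtain ⟨hS, hconj, hgen⟩ := id hG
  have hd := C.hd
  have ha := C.ha
  have he : e ∈ D := C.w.1.1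
  have hf : f ∈ D := C.w.2.1.1
  have de : Commute d e := C.w.1.2.2
  have df : Commute d f := C.w.2.1.2.2
  by_contra hcon
  push Not at hcon
  obtain ⟨hye, hyf, hyg⟩ := hcon
  have hsub := Mc_subsingleton hG hprim C hd ha (fun h => C.ad h.symm)
  have heM : e ∈ Mc D d a := ⟨he, de.symm, C.ae.symm⟩
  have hna : ∀ z ∈ Dc D d, z ≠ e → ¬ Commute a z := by
    intro z hz hze hc
    exact hze (hsub ⟨hz.1, hz.2.2.symm, hc.symm⟩ heM)
  have hnyf : ¬ Commute y f := not_commute_of_cfg hG hprim C hd hy C.w.2.1 hyf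
  have h3 : f * y * f ∈ Dc D d := by
    have := conj_mem_Dc hconj f hy
    rwa [conj_eq_of_commute df.symm, tt_inv hS hf] at this
  have f2 := tt_sq hS hf
  have e2 := tt_sq hS he
  have h3e : f * y * f ≠ e := by
    intro h
    apply hyg
    have br : e * f * e = f * e * f := tt_braid hS he hf C.ef
    rw [br, ← h]
    calc y = (f * f) * y * (f * f) := by rw [f2, one_mul, mul_one]
      _ = _ := by simp only [mul_assoc]
  have n1 := hna y hy hye
  have n2 := C.af
  have n3 := hna _ h3 h3e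
  obtain ⟨j0, j1, j2⟩ := plane_id a y f (tt_sq hS ha) (tt_sq hS hy.1) f2 (tt_braid hS ha hy.1 n1)
    (tt_braid hS ha hf n2) (tt_braid hS hy.1 hf hnyf) (tt_braid hS ha h3.1 n3)
  set τ := a * (y * f) * a with hτ
  have hinv : τ⁻¹ = a * (f * y) * a := inv_eq_of_mul_eq_one_right j0
  have hsub2 := Mc_subsingleton hG hprim C hy.1 hf hnyf
  have m1 : d ∈ Mc D y f := ⟨hd, hy.2.2, df⟩
  have m2 : τ * d * τ⁻¹ ∈ Mc D y f := by
    refine ⟨hconj τ d hd, ?_, ?_⟩
    · rw [commute_conj_iff, hinv, j1]; exact df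
    · rw [commute_conj_iff, hinv, j2]; exact h3.2.2
  have h4 := hsub2 m2 m1
  -- τ commutes with d
  have h5 : Commute τ d := by
    show τ * d = d * τ
    calc τ * d = τ * d * τ⁻¹ * τ := by group
      _ = d * τ := by rw [h4]
  have h6 : Commute (y * f) (a⁻¹ * d * a) := by
    have : Commute (a * (y * f) * a⁻¹) d := by rw [tt_inv hS ha]; exact h5
    exact (commute_conj_iff a (y * f) d).mp this
  have hcD : a⁻¹ * d * a ∈ D := by
    have := hconj a⁻¹ d hd
    rwa [inv_inv] at this
  have h7 := (commute_of_commute_mul hS hcD hy.1 hf hnyf h6.symm).1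
  apply n1
  have br : a * d * a = d * a * d := tt_braid hS ha hd C.ad
  have ea : a = d * (a⁻¹ * d * a) * d := by
    rw [tt_inv hS ha, br]
    calc a = (d * d) * a * (d * d) := by rw [tt_sq hS hd, one_mul, mul_one]
      _ = _ := by simp only [mul_assoc]
  rw [ea]
  exact (hy.2.2.mul_left h7).mul_left hy.2.2

end

end Cfsg.Agent.Lib.Helper91
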